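import Cfsg.Agent.H77.SgDefs

/-! Overgroups of the norm-one torus: an invariant equivalence relation with small classes. -/

set_option autoImplicit false

namespace Cfsg.Agent.H22.SgBlock

open Module Cfsg.Agent.H77.Sg

universe u v

theorem dvd_ncard {α : Type v} [Finite α] (r : α → α → Prop) (E : Set α) (N : ℕ)
    (rf : ∀ x ∈ E, r x x) (sy : ∀ x y, r x y → r y x) (tr : ∀ x y z, r x y → r y z → r x z)
    (cl : ∀ x ∈ E, ∀ y, r x y → y ∈ E) (hN : ∀ x ∈ E, {y | r x y}.ncard = N) : N ∣ E.ncard := by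
  classical
  rw [Set.ncard_eq_toFinset_card E, Finset.card_eq_sum_card_image fun x => {y | r x y}]
  refine Finset.dvd_sum fun b hb => ?_
  obtain ⟨x, hx, rfl⟩ := Finset.mem_image.1 hb
  rw [Set.Finite.mem_toFinset] at hx
  rw [← hN x hx, ← Set.ncard_coe_finset]
  refine dvd_of_eq (congrArg _ (Set.ext fun y => ?_))
  simp only [Finset.coe_filter, Set.Finite.mem_toFinset, Set.mem_ofPred_eq]
  exact ⟨fun h => ⟨cl x hx y h, Set.ext fun z => ⟨tr x y z h, tr y x z (sy x y h)⟩⟩,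
    fun ⟨h, e⟩ => e.le (rf y h)⟩

variable {F : Type u} {K : Type v} [Field F] [Field K] [Algebra F K] [Finite F] [Finite K]

theorem ncard_mu {d : ℕ} (d0 : d ≠ 0) (hd : d ∣ Nat.card K - 1) : {w : K | w ^ d = 1}.ncard = d := by
  have : {w : K | w ^ d = 1} = Units.val '' ((powMonoidHom d : Kˣ →* Kˣ).ker : Set Kˣ) := by
    ext w
    constructor
    · intro h
      exact ⟨Units.ofPowEqOne w d h d0, Units.ext (by simp), rfl⟩
    · rintro ⟨a, h, rfl⟩
      exact congrArg Units.val (show a ^ d = 1 from h)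
  rw [this, Set.ncard_image_of_injective _ Units.val_injective, ← Nat.card_coe_set_eq]
  exact (IsCyclic.card_powMonoidHom_ker Kˣ d).trans (by rw [Nat.card_units, Nat.gcd_eq_right hd])

omit [Finite K] in
theorem ncard_orb {x : K} (hx : x ≠ 0) :
    {y | ∃ c : F, c ≠ 0 ∧ y = c • x}.ncard = Nat.card F - 1 := by
  have : {y | ∃ c : F, c ≠ 0 ∧ y = c • x} = (fun c : F => c • x) '' {0}ᶜ := by
    ext y
    simp [eq_comm]
  rw [this, Set.ncard_image_of_injective _ (smul_left_injective F hx), Set.ncard_compl,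
    Set.ncard_singleton]

omit [Finite K] in
theorem pow_sub_one {c : F} (hc : c ≠ 0) : c ^ (Nat.card F - 1) = 1 := by
  have := Fintype.ofFinite F
  rw [Nat.card_eq_fintype_card]
  exact FiniteField.pow_card_sub_one_eq_one c hc

theorem scalar_of (hd : Nat.card F - 1 ∣ Nat.card K - 1) {u : K} (hu : u ^ (Nat.card F - 1) = 1) :
    ∃ c : F, c ≠ 0 ∧ u = c • (1 : K) := by
  have q1 := Finite.one_lt_card (α := F)
  refine (Set.eq_of_subset_of_ncard_le (s := {y | ∃ c : F, c ≠ 0 ∧ y = c • (1 : K)})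
    (t := {w : K | w ^ (Nat.card F - 1) = 1}) ?_ ?_).ge hu
  · rintro _ ⟨c, hc, rfl⟩
    simp [smul_pow, pow_sub_one hc]
  · rw [ncard_mu (by omega) hd, ncard_orb one_ne_zero]

omit [Finite F] in
/-- A covering by eigenspaces for few multiplications. -/
theorem cover (g : K ≃ₗ[F] K) (y : K) (E : Set K) (h : ∀ x, ∃ e ∈ E, g (y * x) = e * g x)
    (hE : E.ncard * E.ncard < Nat.card K) : ∃ e, ∀ x, g (y * x) = e * g x := by
  by_contra hn
  push Not at hn
  choose ε h1 h2 using h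
  choose p hp using hn
  have inj : Function.Injective fun x => ((⟨ε x, h1 x⟩, ⟨ε (p (ε x) + x), h1 _⟩) : E × E) := by
    intro x x' e
    simp only [Prod.mk.injEq, Subtype.mk.injEq] at e
    obtain ⟨e1, e2⟩ := e
    by_contra ne
    have k1 := h2 x
    have k2 := h2 x'
    have k3 := h2 (p (ε x) + x)
    have k4 := h2 (p (ε x') + x')
    rw [← e2, ← e1] at k4
    rw [← e1] at k2
    rw [mul_add, map_add, map_add] at k3 k4
    have k5 : (ε (p (ε x) + x) - ε x) * (g x - g x') = 0 := by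
      linear_combination k1 - k2 - k3 + k4
    have k6 := (mul_eq_zero.1 k5).resolve_right (sub_ne_zero.2 (g.injective.ne ne))
    exact hp (ε x) (by linear_combination k3 - k1 + (g (p (ε x)) + g x) * k6)
  have := Nat.card_le_card_of_injective _ inj
  rw [Nat.card_prod, Nat.card_coe_set_eq] at this
  omega

theorem block (kit : KitStmt.{u, v}) : BlockStmt.{u, v} := by
  intro F K _ _ _ _ _ n q t R X ct tr Δ h0 sy tra inv sc fr ⟨x0, y1, hxy, ny⟩ g hg
  have kt := kit F K (ct.hn ▸ ct.pn)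
  obtain rfl := ct.hq
  have q1 := Finite.one_lt_card (α := F)
  have n0 := ct.pn.ne_zero
  obtain ⟨φ, hφ, eφ⟩ := ct.frob
  have pq : ∀ w : K, w ^ Nat.card F = w ^ (Nat.card F - 1) * w := fun w => by
    rw [← pow_succ, Nat.sub_add_cancel q1.le]
  have rf : ∀ x, x ≠ 0 → Δ x x := fun x hx => by simpa using sc x 1 hx one_ne_zero
  have A : ∀ (v w : K) (c : F), c ≠ 0 → v ^ Nat.card F = c • v → Δ v w →
      ∃ c' : F, c' ^ n = 1 ∧ w ^ (Nat.card F - 1) = c' • (1 : K) := fun v w c hc e h => by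
    obtain ⟨v0, w0⟩ := h0 v w h
    obtain ⟨c', s, k1, k2, k3⟩ := ct.ker (Units.mk0 (w ^ (Nat.card F - 1)) (pow_ne_zero _ w0)) (by
      rw [Units.val_mk0, map_pow, pow_sub_one (Algebra.norm_ne_zero_iff.2 w0)])
    rw [Units.val_mk0] at k3
    have k4 := inv φ hφ v w h
    rw [eφ, eφ, e, pq, k3, smul_mul_assoc] at k4
    have c0 : c' ≠ 0 := fun e => by simp [e, n0] at k1
    obtain rfl := fr w s k2 (tra _ _ _ (tra _ _ _ (sy _ _ h) (tra _ _ _ (sc v c v0 hc) k4))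
      (sy _ _ (sc _ c' (mul_ne_zero s.ne_zero w0) c0)))
    exact ⟨c', k1, k3⟩
  obtain ⟨g0, hg0, e0⟩ := tr x0 1 (h0 _ _ hxy).1 one_ne_zero
  have d0 := inv g0 hg0 _ _ hxy
  rw [e0] at d0
  have n1 : g0 y1 ∉ F ∙ (1 : K) := fun h => by
    obtain ⟨c, e⟩ := Submodule.mem_span_singleton.1 h
    rw [← e0, ← map_smul] at e
    exact ny (Submodule.mem_span_singleton.2 ⟨c, g0.injective e⟩)
  generalize g0 y1 = y at d0 n1
  have cK : Nat.card K - 1 = R * (Nat.card F - 1) * t := by rw [ct.card]; rfl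
  have FF : ∀ u : K, u ^ (Nat.card F - 1) = 1 → ∃ c : F, c ≠ 0 ∧ u = c • (1 : K) := fun u =>
    scalar_of (cK ▸ (dvd_mul_left _ _).mul_right _)
  have n2 : ¬ ∃ c : F, c ≠ 0 ∧ y = c • (1 : K) := fun ⟨c, _, e⟩ =>
    n1 (Submodule.mem_span_singleton.2 ⟨c, e.symm⟩)
  obtain ⟨rfl, dv⟩ := ct.hR.resolve_left fun ⟨_, cp⟩ => by
    obtain ⟨c, k1, k2⟩ := A 1 y 1 one_ne_zero (by simp) d0
    have c0 : c ≠ 0 := fun e => by simp [e, n0] at k1
    have k3 := pow_gcd_eq_one.2 ⟨k1, pow_sub_one c0⟩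
    rw [cp, pow_one] at k3
    exact n2 (FF y (by rw [k2, k3, one_smul]))
  have big := ct.big1
  have cp : (R * (Nat.card F - 1)).Coprime t := Nat.Coprime.mul_left ct.copn.symm ct.cop.symm
  have m0 : R * (Nat.card F - 1) ≠ 0 := mul_ne_zero n0 (by omega)
  set E : Set K := {w | w ^ (R * (Nat.card F - 1)) = 1} with hE
  have cE : E.ncard = R * (Nat.card F - 1) := ncard_mu m0 (cK ▸ dvd_mul_right _ _)
  have E0 : ∀ v ∈ E, v ≠ 0 := fun v hv e => by simp [hE, e, m0] at hv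
  have cl : ∀ v ∈ E, ∀ w, Δ v w → w ∈ E := fun v hv w h => by
    obtain ⟨k, hk⟩ := dv
    obtain ⟨c, c0, e⟩ := FF (v ^ (Nat.card F - 1)) (by
      conv_lhs => rw [hk, pow_mul, ← hk, ← pow_mul _ _ R, mul_comm _ R]
      rw [show v ^ (R * (Nat.card F - 1)) = 1 from hv, one_pow])
    obtain ⟨c', k1, k2⟩ := A v w c c0 (by rw [pq, e, smul_mul_assoc, one_mul]) h
    change w ^ _ = 1
    rw [mul_comm, pow_mul, k2, smul_pow, k1, one_pow, one_smul]
  have hN : ∀ x, x ≠ 0 → {z | Δ x z}.ncard = {z | Δ 1 z}.ncard := fun x hx => by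
    obtain ⟨k, hk, rfl⟩ := tr 1 x one_ne_zero hx
    rw [← Set.ncard_image_of_injective {z | Δ 1 z} k.injective]
    refine congrArg _ (Set.ext fun z => ⟨fun h => ⟨k⁻¹ z, ?_, k.apply_symm_apply z⟩, ?_⟩)
    · simpa using inv k⁻¹ (inv_mem hk) _ _ h
    · rintro ⟨z, h, rfl⟩
      exact inv k hk _ _ h
  have d1 := dvd_ncard Δ E _ (fun x hx => rf x (E0 x hx)) sy tra cl fun x hx => hN x (E0 x hx)
  have d2 := dvd_ncard (fun a b : K => ∃ c : F, c ≠ 0 ∧ b = c • a) {z | Δ 1 z} _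
    (fun x _ => ⟨1, one_ne_zero, by simp⟩)
    (by
      rintro x _ ⟨c, hc, rfl⟩
      exact ⟨c⁻¹, inv_ne_zero hc, by simp [hc]⟩)
    (by
      rintro x _ _ ⟨c, hc, rfl⟩ ⟨c', hc', rfl⟩
      exact ⟨c' * c, mul_ne_zero hc' hc, smul_smul _ _ _⟩)
    (by
      rintro x hx _ ⟨c, hc, rfl⟩
      exact tra _ _ _ hx (sc x c (h0 _ _ hx).2 hc))
    fun x hx => ncard_orb (h0 _ _ hx).2
  have d3 : {z | Δ 1 z}.ncard = E.ncard := by
    obtain ⟨a, ha⟩ := d2
    rw [cE, ha, mul_comm R, Nat.mul_dvd_mul_iff_left (by omega)] at d1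
    rcases (Nat.dvd_prime ct.pn).1 d1 with rfl | rfl
    · refine absurd ((Set.eq_of_subset_of_ncard_le (s := {y | ∃ c : F, c ≠ 0 ∧ y = c • (1 : K)})
        (t := {z | Δ 1 z}) ?_ ?_).ge d0) n2
      · rintro _ ⟨c, hc, rfl⟩
        exact sc 1 c one_ne_zero hc
      · rw [ha, mul_one, ncard_orb one_ne_zero]
    · rw [cE, ha, mul_comm]
  have full : ∀ v ∈ E, ∀ w ∈ E, Δ v w := fun v hv w hw =>
    (Set.eq_of_subset_of_ncard_le (s := {z | Δ v z}) (cl v hv) (by rw [hN v (E0 v hv), d3])).ge hw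
  have dec : ∀ x : K, x ≠ 0 → ∃ s : Kˣ, mulH F K s ∈ X ∧ s * x ∈ E := fun x hx => by
    obtain ⟨a, rfl⟩ := hx.isUnit
    have k1 : ((a ^ (R * (Nat.card F - 1)))⁻¹) ^ t = 1 := by
      rw [inv_pow, ← pow_mul, ← cK, ← Nat.card_units, pow_card_eq_one', inv_one]
    obtain ⟨k, hk⟩ := exists_pow_eq_self_of_coprime
      (cp.coprime_dvd_right (orderOf_dvd_of_pow_eq_one k1))
    refine ⟨(a ^ (R * (Nat.card F - 1)))⁻¹ ^ k, (ct.mem _).2 ⟨1, _, ?_, (one_smul _ _).symm⟩, ?_⟩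
    · rw [pow_right_comm, k1, one_pow]
    · change _ ^ _ = _
      rw [← Units.val_mul, ← Units.val_pow_eq_pow_val, mul_pow, ← pow_mul, mul_comm k, pow_mul, hk,
        inv_mul_cancel, Units.val_one]
  have yE := cl 1 (one_pow _) y d0
  obtain ⟨e, he⟩ := cover g y E (fun x => by
    by_cases hx : x = 0
    · exact ⟨1, one_pow _, by simp [hx]⟩
    obtain ⟨s, hs, k⟩ := dec x hx
    have k1 : Δ x (y * x) := by
      have := inv _ (inv_mem hs) _ _ (full _ k (y * (s * x)) (by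
        change _ ^ _ = _
        rw [mul_pow, show y ^ _ = 1 from yE, show (s * x : K) ^ _ = 1 from k, one_mul]))
      simpa [← map_inv, mul_left_comm y] using this
    have k2 := inv g hg _ _ k1
    obtain ⟨s', hs', k'⟩ := dec (g x) (h0 _ _ k2).1
    have k3 := cl _ k' _ (inv _ hs' _ _ k2)
    refine ⟨s' * g (y * x) / (s' * g x), ?_, ?_⟩
    · change _ ^ _ = _
      rw [div_pow, show (s' * g (y * x) : K) ^ _ = 1 from k3, show (s' * g x : K) ^ _ = 1 from k',
        div_one]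
    · rw [mul_div_mul_left _ _ s'.ne_zero, div_mul_cancel₀ _ (h0 _ _ k2).1]) (by
    rw [cE, ct.card]
    have := Nat.le_self_pow (n := 6) (by norm_num) (R * (Nat.card F - 1))
    exact Nat.lt_succ_of_le (Nat.mul_le_mul_left _ (by omega)))
  exact kt.nm_of g y e n1 he

end Cfsg.Agent.H22.SgBlock
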