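import Mathlib
import Cfsg.Prelude.Def_LieTypeDatum
import Cfsg.Agent.H62.EVCongr
import Cfsg.Agent.S0304
import Cfsg.Agent.S0245

/-!
# Outer involutions of groups of Lie type in characteristic two: generic lemmas
-/

set_option autoImplicit false

namespace Cfsg.Agent.H22.EvRaw

open Cfsg Subgroup H62.EV Matrix

section Gen

variable {S : Type*} [Group S]

theorem center_eq_bot [IsSimpleGroup S] (h : ¬ IsMulCommutative S) : center S = ⊥ := by
  rcases (inferInstance : (center S).Normal).eq_bot_or_eq_top with h1 | h1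
  · exact h1
  · exact absurd ⟨⟨fun a b => (mem_center_iff.1 (h1 ▸ mem_top b) a)⟩⟩ h

theorem conj_injective (hZ : center S = ⊥) :
    Function.Injective (MulAut.conj : S →* MulAut S) := by
  rw [injective_iff_map_eq_one]
  intro x hx
  have : x ∈ center S := mem_center_iff.2 fun y => by
    have := DFunLike.congr_fun hx y
    simp only [MulAut.conj_apply, MulAut.one_apply] at this
    rw [mul_inv_eq_iff_eq_mul] at this
    exact this.symm
  rwa [hZ, mem_bot] at this

theorem mul_conj (α : MulAut S) (x : S) : α * MulAut.conj x = MulAut.conj (α x) * α := by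
  ext y; simp

theorem conj_mul_of_fixed {α : MulAut S} {x : S} (h : x ∈ fixedSubgroup α) :
    MulAut.conj x * α = α * MulAut.conj x := by
  rw [mul_conj, mem_fixed.1 h]

/-- The fixed points of `α` as automorphisms centralizing `α`. -/
def fixHom {D : Subgroup (MulAut S)} (hD : Inn S ≤ D) (α : MulAut S) :
    fixedSubgroup α →* ↥(D ⊓ centralizer ({α} : Set (MulAut S))) :=
  ((MulAut.conj : S →* MulAut S).comp (fixedSubgroup α).subtype).codRestrict _ fun x =>
    ⟨hD ⟨x.1, rfl⟩, mem_centralizer_singleton_iff.2 (conj_mul_of_fixed x.2)⟩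

theorem fixHom_injective (hZ : center S = ⊥) {D : Subgroup (MulAut S)} (hD : Inn S ≤ D)
    (α : MulAut S) : Function.Injective (fixHom hD α) := fun _ _ h =>
  Subtype.ext (conj_injective hZ (congrArg Subtype.val h))

theorem card_fixed_dvd (hZ : center S = ⊥) {D : Subgroup (MulAut S)} (hD : Inn S ≤ D)
    (α : MulAut S) {X : Type*} [Group X] (e : ↥(D ⊓ centralizer ({α} : Set (MulAut S))) ≃* X) :
    Nat.card (fixedSubgroup α) ∣ Nat.card X := by
  rw [← Nat.card_congr e.toEquiv]
  exact card_dvd_of_injective _ (fixHom_injective hZ hD α)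

theorem solvable_fixed (hZ : center S = ⊥) {D : Subgroup (MulAut S)} (hD : Inn S ≤ D)
    (α : MulAut S) {X : Type*} [Group X] (e : ↥(D ⊓ centralizer ({α} : Set (MulAut S))) ≃* X)
    (h : Group.IsSolvable X) : Group.IsSolvable (fixedSubgroup α) :=
  Group.isSolvable_of_isSolvable_injective (f := e.toMonoidHom.comp (fixHom hD α))
    (e.injective.comp (fixHom_injective hZ hD α))

theorem two_pow_dvd_of_odd {k a N : ℕ} (ha : Odd a) (h : 2 ^ k ∣ a * N) : 2 ^ k ∣ N :=
  (Nat.Coprime.pow_left k (Nat.coprime_two_left.2 ha)).dvd_of_dvd_mul_left h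

theorem four_dvd_index [Finite S] {H : Subgroup S} {k m : ℕ} (h1 : 2 ^ (k + 2) ∣ Nat.card S)
    (h2 : Nat.card H ∣ 2 ^ k * m) (hm : Odd m) : 4 ∣ H.index := by
  rw [← H.card_mul_index] at h1
  have h3 : 2 ^ k * 2 ^ 2 ∣ 2 ^ k * (m * H.index) := by
    rw [← pow_add, ← mul_assoc]
    exact h1.trans (Nat.mul_dvd_mul_right h2 _)
  exact two_pow_dvd_of_odd (k := 2) hm (Nat.dvd_of_mul_dvd_mul_left (by positivity) h3)

theorem cob_of_conj (hZ : center S = ⊥) {α : MulAut S} {a : S} (ha : a * a = 1)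
    {h : MulAut S} (hh : h ∈ Inn S) (e : MulAut.conj a * α = h * α * h⁻¹) : Cob α a := by
  obtain ⟨j, rfl⟩ := hh
  rw [mul_assoc, ← map_inv, mul_conj, ← mul_assoc, ← map_mul, mul_left_inj] at e
  have e1 := conj_injective hZ e
  refine ⟨j⁻¹, ?_⟩
  rw [eq_inv_of_mul_eq_one_right ha, e1, _root_.mul_inv_rev]

theorem sq_conj_mul {α : MulAut S} (h2 : orderOf α = 2) {a : S} (ha : a ∈ fixedSubgroup α)
    (h : a * a = 1) (hα : α ∉ Inn S) : orderOf (MulAut.conj a * α) = 2 := by
  have h1 : α * α = 1 := by rw [← sq, ← h2, pow_orderOf_eq_one]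
  refine orderOf_eq_prime ?_ fun e => hα ?_
  · rw [sq]
    conv_lhs => enter [1]; rw [conj_mul_of_fixed ha]
    rw [mul_assoc, ← mul_assoc (MulAut.conj a), ← map_mul, h, map_one, one_mul, h1]
  · rw [eq_inv_of_mul_eq_one_right e]
    exact inv_mem ⟨a, rfl⟩

/-- A cyclic group has at most one involution. -/
theorem inv_unique {K : Type*} [Group K] [Finite K] [IsCyclic K] {a b : K} (ha : a * a = 1)
    (hb : b * b = 1) (ha1 : a ≠ 1) (hb1 : b ≠ 1) : a = b := by
  classical
  have := Fintype.ofFinite K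
  by_contra hab
  have h1 := IsCyclic.card_pow_eq_one_le (α := K) (n := 2) two_pos
  have h2 : ({1, a, b} : Finset K) ⊆ Finset.univ.filter fun x : K => x ^ 2 = 1 := by
    intro x hx
    simp only [Finset.mem_insert, Finset.mem_singleton] at hx
    rcases hx with rfl | rfl | rfl <;> simp [sq, ha, hb]
  have h3 := Finset.card_le_card h2
  rw [Finset.card_eq_three.2 ⟨1, a, b, ha1.symm, hb1.symm, hab, rfl⟩] at h3
  omega

theorem mul_self_of_two {A : Type*} [Group A] {α : A} (h : orderOf α = 2) : α * α = 1 := by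
  rw [← sq, ← h, pow_orderOf_eq_one]

/-- No four-group of outer involutions. -/
theorem no_four {K : Type*} [Group K] (χ : MulAut S →* K)
    (hK : ∀ a b : K, a * a = 1 → b * b = 1 → a ≠ 1 → b ≠ 1 → a = b)
    (hker : ∀ α : MulAut S, α * α = 1 → χ α = 1 → α ∈ Inn S) {α β : MulAut S} (hα : orderOf α = 2)
    (hβ : orderOf β = 2) (hc : α * β = β * α) (h1 : α ∉ Inn S) (h2 : β ∉ Inn S)
    (h3 : α * β ∉ Inn S) : False := by
  have a1 := mul_self_of_two hα
  have b1 := mul_self_of_two hβ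
  have h4 := hK (χ α) (χ β) (by rw [← map_mul, a1, map_one]) (by rw [← map_mul, b1, map_one])
    (fun e => h1 (hker α a1 e)) fun e => h2 (hker β b1 e)
  refine h3 (hker _ ?_ (by rw [map_mul, ← h4, ← map_mul, a1, map_one]))
  conv_lhs => enter [2]; rw [hc]
  rw [mul_assoc, ← mul_assoc β, b1, one_mul, a1]

/-- An involution in the image of `η` is inner if the index is odd. -/
theorem mem_inn_of_odd {C : Type*} [Group C] (η : C →* MulAut S)
    (h : Odd ((Inn S).comap η).index) {α : MulAut S} (hα : α ∈ η.range) (h2 : α * α = 1) :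
    α ∈ Inn S := by
  obtain ⟨g, rfl⟩ := hα
  have h1 : g ^ ((Inn S).comap η).index ∈ (Inn S).comap η := pow_index_mem _ g
  obtain ⟨k, hk⟩ := h
  rwa [hk, mem_comap, map_pow, pow_succ, pow_mul, sq, h2, one_pow, one_mul] at h1

theorem range_le_inn {C : Type*} [Group C] (η : C →* MulAut S)
    (h : ((Inn S).comap η).index = 1) : η.range ≤ Inn S := by
  rintro _ ⟨g, rfl⟩
  rw [index_eq_one] at h
  exact mem_comap.1 (h ▸ mem_top g)

end Gen

section PGO

variable {F : Type*} [Field F] [Fintype F] [CharP F 2]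

theorem card_pgo_dvd {ι : Type} [Fintype ι] [DecidableEq ι] (Q : (ι → F) → F)
    (hQ : ∀ (c : F) v, Q (c • v) = c ^ 2 * Q v) :
    Nat.card (PGO F Q) ∣ Nat.card (isometryGroup F Q) := by
  have hle : isometryGroup F Q ≤ Geo.quadSimilarityGroup (F := F) Q := fun g hg =>
    ⟨1, fun v => by simpa using hg v v⟩
  refine card_dvd_of_surjective ((QuotientGroup.mk' _).comp (inclusion hle)) fun x => ?_
  obtain ⟨⟨g, c, hc⟩, rfl⟩ := QuotientGroup.mk_surjective x
  obtain ⟨u, hu⟩ := (frobeniusEquiv F 2).surjective (c : F)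
  have hu' : u ^ 2 = c := hu
  have hu0 : u ≠ 0 := fun h => c.ne_zero (by rw [← hu', h]; simp)
  let s : GL ι F := Units.map (Matrix.scalar ι : F →+* Matrix ι ι F).toMonoidHom (Units.mk0 u hu0)
  have hs : ∀ v : ι → F, ((s⁻¹ : GL ι F) : Matrix ι ι F) *ᵥ v = u⁻¹ • v := fun v => by
    simp only [s, ← map_inv]
    ext i
    simp [Matrix.mulVec_diagonal]
  refine ⟨⟨g * s⁻¹, fun v _ => ?_⟩, ?_⟩
  · simp only [Units.coeHom_apply, Units.val_mul, ← Matrix.mulVec_mulVec, hs, hc, hQ, ← hu']
    field_simp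
  · refine QuotientGroup.eq.2 ?_
    rw [mem_subgroupOf]
    refine ⟨Units.mk0 u hu0, ?_⟩
    change s = (g * s⁻¹)⁻¹ * g
    group

theorem card_pgo_odd_dvd {q : ℕ} (hF : Fintype.card F = q) (m : ℕ) :
    Nat.card (PGO F (quadFormOdd m F)) ∣
      q ^ (m ^ 2) * ∏ i ∈ Finset.range m, (q ^ (2 * (i + 1)) - 1) := by
  obtain ⟨e⟩ := S0304.result (F := F) m
  rw [← S0245.result hF m, ← Nat.card_congr e.toEquiv]
  refine card_pgo_dvd _ fun c v => ?_
  simp only [quadFormOdd, Pi.smul_apply, smul_eq_mul, mul_add, Finset.mul_sum]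
  congr 1
  · ring
  · exact Finset.sum_congr rfl fun i _ => by ring

end PGO

end Cfsg.Agent.H22.EvRaw
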