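import Mathlib
import Cfsg.Agent.H22.EvRaw0
import Cfsg.Agent.H29.PSL2Sub
import Cfsg.Agent.H29.Solvable
import Cfsg.Agent.S2697
import Cfsg.Agent.S2698
import Cfsg.Agent.S2699
import Cfsg.Agent.S2706
import Cfsg.Agent.S0243
import Cfsg.Agent.S0280

/-!
# Outer involutions of `L₂(2ⁿ)`, `U₃(2ⁿ)` and `L₅(2)`
-/

set_option autoImplicit false

namespace Cfsg.Agent.H22.EvRaw

open Cfsg Subgroup H62.EV Matrix SemidirectProduct

universe u

theorem odd_pow_sub_one {k : ℕ} (hk : k ≠ 0) : Odd (2 ^ k - 1) :=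
  Nat.Even.sub_odd Nat.one_le_two_pow ((Nat.even_pow' hk).2 even_two) odd_one

theorem raw_l2 {F : Type} [Field F] [Fintype F] [CharP F 2] (h4 : 4 ≤ Fintype.card F)
    (hZ : center (ProjectiveSpecialLinearGroup (Fin 2) F) = ⊥) :
    Raw (ProjectiveSpecialLinearGroup (Fin 2) F) := by
  obtain ⟨⟨f, hf⟩, -, hF⟩ := FiniteField.card F 2
  replace hF : Fintype.card F = 2 ^ f := hF
  have hodd := odd_pow_sub_one hf.ne'
  have hgcd : Nat.gcd 2 (2 ^ f - 1) = 1 := Nat.coprime_two_left.2 hodd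
  have hD : (H73.diagPSL (Fin 2) F).range ≤ Inn _ := range_le_inn _ (by
    rw [H73.index_comap_inn_diagPSL, Nat.card_eq_fintype_card, hF, Fintype.card_fin, hgcd])
  obtain ⟨χ, -, k0, k1⟩ := H73.exists_chi_two (ι := Fin 2) (F := F) (by simp)
  have := H73.isCyclic_ringAut (F := F)
  have := H73.finite_ringAut (F := F)
  have hker : ∀ α : MulAut (ProjectiveSpecialLinearGroup (Fin 2) F), α * α = 1 → χ α = 1 →
      α ∈ Inn _ := fun α _ h => hD (k0 ▸ h)
  refine ⟨fun α h2 hα => ?_, fun α β a b c d e g =>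
    (no_four χ (fun _ _ => inv_unique) hker a b c d e g).elim⟩
  have hcl : IsFieldAutClassPSL α ∧ ∃ σ : RingAut F, orderOf σ = 2 := by
    obtain ⟨γ, rfl | ⟨h3, -⟩⟩ := H73.psl_aut_cases' (ι := Fin 2) (F := F) (by simp) α
    · have h1 : γ.right ≠ 1 := fun e => hα (hker _ (mul_self_of_two h2) (by rw [k1, e]))
      have h3 : orderOf γ.right = 2 := orderOf_eq_prime (by
        rw [← k1, ← map_pow, sq, mul_self_of_two h2, map_one]) h1
      obtain ⟨h, -, e⟩ := H73.lang_field_psl γ.right γ.left (by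
        rw [← H73.theta_eq_diag_mul, h3, sq, mul_self_of_two h2])
      rw [← H73.theta_eq_diag_mul] at e
      refine ⟨⟨h⁻¹, γ.right, h1, H73.isStdFieldAutPSL_iff.2 ?_⟩, _, h3⟩
      rw [e]; group
    · simp at h3
  obtain ⟨hcl, σ, hσ⟩ := hcl
  have := Fintype.ofFinite (H73.fixF σ)
  have hF₀ : Fintype.card (H73.fixF σ) = 2 ^ (f / 2) := by
    rw [← Nat.card_eq_fintype_card, H73.card_fixF hF, hσ]
  obtain ⟨⟨k, rfl⟩, ⟨e⟩, -⟩ := S2698.result hF hf le_rfl (fun _ => h4) α hcl Nat.prime_two h2 _ hF₀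
  rw [Nat.mul_div_cancel_left _ two_pos] at hF₀
  have hI : Inn _ ≤ inndiagPSL 2 F := H73.inndiagPSL_eq_range (F := F) ▸ H73.inn_le_range_diagPSL
  by_cases hk : k ≤ 1
  · refine Or.inl (solvable_fixed hZ hI α e (H29.isSolvable_PGL_of_le_three ?_))
    rw [Nat.card_eq_fintype_card, hF₀]
    interval_cases k <;> norm_num
  refine Or.inr ⟨four_dvd_index (k := k) (m := (2 ^ k + 1) * (2 ^ k - 1)) ?_ ?_ ?_,
    fun a ha h => ?_⟩
  · have h1 := S0243.result hF 2 le_rfl
    rw [hgcd, one_mul, Fin.prod_univ_two] at h1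
    refine two_pow_dvd_of_odd hodd ?_
    rw [h1]
    refine Dvd.dvd.mul_left (Nat.dvd_sub ?_ ?_) _
    · rw [← pow_mul]; exact pow_dvd_pow 2 (by omega)
    · simpa using pow_dvd_pow 2 (show k + 2 ≤ 2 * k by omega)
  · have h1 := card_fixed_dvd hZ hI α e
    rw [H29.card_PGL2, Nat.card_eq_fintype_card (α := H73.fixF σ), hF₀] at h1
    convert h1 using 1
    ring
  · exact (((Nat.even_pow' (by omega)).2 even_two).add_one).mul (odd_pow_sub_one (by omega))
  · obtain ⟨g, hg, e'⟩ := (S2697.result hF hf le_rfl (fun _ => h4) α (MulAut.conj a) (Or.inl hcl)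
      Nat.prime_two h2 (hI ⟨a, rfl⟩)).1 (sq_conj_mul h2 ha h hα)
    exact cob_of_conj hZ h (hD (H73.inndiagPSL_eq_range (F := F) ▸ hg)) e'

theorem rawL2 : RawFor.{u} fun S _ => IsL2E S := by
  rintro S _ _ h1 h2 ⟨F, _, _, _, h4, ⟨e⟩⟩
  have := e.symm.isSimpleGroup
  refine Raw.congr e.symm (raw_l2 h4 (center_eq_bot fun h => h2 ⟨⟨fun a b => e.injective ?_⟩⟩))
  rw [map_mul, map_mul, h.1.1]

theorem raw_l52 {F : Type} [Field F] [Fintype F] (hF : Fintype.card F = 2)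
    (hZ : center (ProjectiveSpecialLinearGroup (Fin 5) F) = ⊥) :
    Raw (ProjectiveSpecialLinearGroup (Fin 5) F) := by
  have hF' : Fintype.card F = 2 ^ 1 := hF
  have := H73.charP_of_card hF'
  have hD : (H73.diagPSL (Fin 5) F).range ≤ Inn _ := range_le_inn _ (by
    rw [H73.index_comap_inn_diagPSL, Nat.card_eq_fintype_card, hF]; simp)
  obtain ⟨χ, -, k0, k1, k2⟩ := H73.exists_chi_three (ι := Fin 5) (F := F) (by simp)
  have hsub : Subsingleton (RingAut F) := (Nat.card_eq_one_iff_unique.1 (H73.card_ringAut hF')).1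
  have hker : ∀ α : MulAut (ProjectiveSpecialLinearGroup (Fin 5) F), α * α = 1 → χ α = 1 →
      α ∈ Inn _ := fun α _ h => hD (k0 ▸ h)
  have hI : Inn _ ≤ inndiagPSL 5 F := H73.inndiagPSL_eq_range (F := F) ▸ H73.inn_le_range_diagPSL
  refine ⟨fun α h2 hα => ?_, fun α β a b c d e g => (no_four χ ?_ hker a b c d e g).elim⟩
  · have hcl : ∀ α : MulAut (ProjectiveSpecialLinearGroup (Fin 5) F), α ∉ Inn _ →
        IsGraphAutClassPSL α := fun α hα => by
      obtain ⟨γ, rfl | ⟨-, rfl⟩⟩ := H73.psl_aut_cases' (ι := Fin 5) (F := F) (by simp) α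
      · refine absurd (hD (k0 ▸ ?_)) hα
        rw [MonoidHom.mem_ker, k1, Subsingleton.elim γ.right 1]
        rfl
      · refine ⟨by norm_num, _, _, H73.isInnerDiagonalAutPSL_iff.2 ⟨γ.left, rfl⟩,
          H73.isInverseTransposeAutPSL_iff.2 rfl, ?_⟩
        rw [H73.theta_eq_diag_mul, Subsingleton.elim γ.right 1, map_one, map_one, mul_one]
        rfl
    obtain ⟨⟨e⟩, -⟩ := S2699.result hF' le_rfl (by norm_num) (m := 2) rfl α α (hcl α hα) h2
      (hcl α hα) h2
    refine Or.inr ⟨four_dvd_index (k := 4) (m := 45) ?_ ?_ (by decide), fun a ha h => ?_⟩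
    · have h1 := S0243.result hF 5 (by norm_num)
      simp only [Fin.prod_univ_five] at h1
      norm_num at h1
      rw [h1]
      norm_num
    · have h1 := (card_fixed_dvd hZ hI α e).trans (card_pgo_odd_dvd hF 2)
      simpa [Finset.prod_range_succ] using h1
    · obtain ⟨-, g, hg, e'⟩ := S2699.result hF' le_rfl (by norm_num) (m := 2) rfl α
        (MulAut.conj a * α) (hcl α hα) h2
        (hcl _ fun h' => hα ((mul_mem_cancel_left (show MulAut.conj a ∈ Inn _ from ⟨a, rfl⟩)).1 h'))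
        (sq_conj_mul h2 ha h hα)
      exact cob_of_conj hZ h (hD (H73.inndiagPSL_eq_range (F := F) ▸ hg)) e'
  · rintro ⟨a, a'⟩ ⟨b, b'⟩ - - ha hb
    obtain rfl := Subsingleton.elim a 1
    obtain rfl := Subsingleton.elim b 1
    rcases H73.c2_cases a' with rfl | rfl
    · exact absurd rfl ha
    rcases H73.c2_cases b' with rfl | rfl
    · exact absurd rfl hb
    rfl

theorem rawL52 : RawFor.{u} fun S _ => IsLn2 S 5 := by
  rintro S _ _ h1 h2 ⟨F, _, _, hF, ⟨e⟩⟩
  have := e.symm.isSimpleGroup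
  refine Raw.congr e.symm (raw_l52 hF (center_eq_bot fun h => h2 ⟨⟨fun a b => e.injective ?_⟩⟩))
  rw [map_mul, map_mul, h.1.1]

theorem raw_u3 {F : Type} [Field F] [Fintype F] {n : ℕ} (hn : 2 ≤ n)
    (hF : Fintype.card F = (2 ^ n) ^ 2) : Raw (PSU 3 F (2 ^ n)) := by
  have h32 : ¬ (3 = 3 ∧ 2 ^ n = 2) := fun h => by
    have := Nat.pow_right_injective le_rfl (h.2.trans (pow_one 2).symm)
    omega
  set C := H73.clsU hF (le_refl 3)
  have hZ : center (PSU 3 F (2 ^ n)) = ⊥ := C.center_eq_bot'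
  have hsurj := H73.thetaU_surjective hF le_rfl h32
  obtain ⟨χ, k0, k1⟩ := C.exists_chi hsurj
  have := H73.isCyclic_ringAut (F := F)
  have := H73.finite_ringAut (F := F)
  have hq : Odd (2 ^ n + 1) := ((Nat.even_pow' (by omega)).2 even_two).add_one
  have hcomap := H73.comap_inn_diagU hF (le_refl 3)
  -- squares in the group of norm one elements
  have hsq : ∀ g, H73.detU hF 3 g * H73.detU hF 3 g ∈
      (powMonoidHom 3 : H73.muU F (2 ^ n) →* H73.muU F (2 ^ n)).range → C.diag g ∈ Inn _ :=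
    fun g h => by
      rw [← mem_comap, hcomap, mem_comap]
      obtain ⟨k, hk⟩ := hq
      have h1 : H73.detU hF 3 g ^ (2 * k + 1) = 1 := by
        rw [← hk, ← H73.card_muU hF, pow_card_eq_one']
      have h2 := pow_mem h (k + 1)
      rwa [← sq, ← pow_mul, show 2 * (k + 1) = 2 * k + 1 + 1 by ring, pow_succ, h1, one_mul] at h2
  have hker : ∀ α : MulAut (PSU 3 F (2 ^ n)), α * α = 1 → χ α = 1 → α ∈ Inn _ := fun α h2 h => by
    obtain ⟨g, rfl⟩ : α ∈ C.diag.range := k0 ▸ h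
    refine hsq g ?_
    rw [← map_mul, ← mem_comap, ← hcomap, mem_comap, map_mul, h2]
    exact one_mem _
  have hI : Inn _ ≤ inndiagPSU 3 F (2 ^ n) := H73.inndiagPSU_eq hF le_rfl ▸ C.inn_le_range_diag
  refine ⟨fun α h2 hα => ?_, fun α β a b c d e g =>
    (no_four χ (fun _ _ => inv_unique) hker a b c d e g).elim⟩
  have hord : ∀ α : MulAut (PSU 3 F (2 ^ n)), orderOf α = 2 → α ∉ Inn _ → orderOf (χ α) = 2 :=
    fun α h2 hα => orderOf_eq_prime (by rw [← map_pow, sq, mul_self_of_two h2, map_one])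
      fun e => hα (hker _ (mul_self_of_two h2) e)
  have hcl : ∀ α : MulAut (PSU 3 F (2 ^ n)), orderOf α = 2 → α ∉ Inn _ → IsGraphAutClassPSU α :=
    fun α h2 hα => by
      have h3 := hord α h2 hα
      obtain ⟨γ, rfl⟩ := hsurj α
      obtain ⟨hg, e⟩ := C.theta_eq_diag_mul γ (H73.inr_mem_gamU _)
      rw [k1] at h3
      exact ⟨le_rfl, _, _, γ.1.right, (congrArg Even h3).mpr even_two,
        (H73.isInnerDiagonalAutPSU_iff hF le_rfl).2 ⟨_, rfl⟩,
        (H73.isFieldAutPSUOf_iff hF le_rfl).2 rfl, e⟩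
  have := Fintype.ofFinite (GaloisField 2 n)
  have hF₀ : Fintype.card (GaloisField 2 n) = 2 ^ n := by
    rw [← Nat.card_eq_fintype_card, GaloisField.card 2 n (by omega)]
  obtain ⟨⟨e⟩, -⟩ := S2706.result (p := 2) rfl (by omega) hF le_rfl h32 (m := 1) rfl _ hF₀ α α
    (hcl α h2 hα) h2 (hcl α h2 hα) h2
  refine Or.inr ⟨four_dvd_index (k := n) (m := (2 ^ n) ^ 2 - 1) ?_ ?_ ?_, fun a ha h => ?_⟩
  · have h1 := S0280.result hF 3 (by norm_num)
    refine two_pow_dvd_of_odd hq (two_pow_dvd_of_odd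
      ((by decide : Odd 3).of_dvd_nat (Nat.gcd_dvd_left 3 (2 ^ n + 1))) ?_)
    rw [h1, ← pow_mul]
    exact Dvd.dvd.mul_right (pow_dvd_pow 2 (by omega)) _
  · have h1 := (card_fixed_dvd hZ hI α e).trans (card_pgo_odd_dvd hF₀ 1)
    simpa using h1
  · rw [← pow_mul]; exact odd_pow_sub_one (by omega)
  · have h3 := sq_conj_mul h2 ha h hα
    obtain ⟨-, g, hg, e'⟩ := S2706.result (p := 2) rfl (by omega) hF le_rfl h32 (m := 1) rfl _ hF₀ α
      (MulAut.conj a * α) (hcl α h2 hα) h2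
      (hcl _ h3 fun h' => hα ((mul_mem_cancel_left (show MulAut.conj a ∈ Inn _ from ⟨a, rfl⟩)).1 h'))
      h3
    refine cob_of_conj hZ h ?_ e'
    rw [H73.inndiagPSU_eq hF le_rfl] at hg
    obtain ⟨g, rfl⟩ := hg
    have h4 := hord α h2 hα
    obtain ⟨γ, rfl⟩ := hsurj α
    rw [k1] at h4
    have h5 : γ.1.right = H26.frobE hF :=
      inv_unique (mul_self_of_two h4) (mul_self_of_two (H73.orderOf_frobE hF))
        (fun e => by rw [e, orderOf_one] at h4; omega)
        fun e => by have := H73.orderOf_frobE hF; rw [e, orderOf_one] at this; omega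
    have h6 : C.diag (g * (⟨H73.gammaAct (Fin 3) F γ.1 g.1, H73.gammaAct_mem_linPart γ.2 g.2⟩ :
        H73.linPart (H73.gamU 3 F (2 ^ n)))⁻¹) ∈ Inn _ := by
      rw [map_mul, map_inv, ← C.theta_diag]
      have : C.diag g * (C.theta γ * C.diag g * (C.theta γ)⁻¹)⁻¹ = MulAut.conj a := by
        rw [eq_mul_inv_of_mul_eq e']
        group
      rw [this]
      exact ⟨a, rfl⟩
    refine hsq g ?_
    rw [← mem_comap, hcomap, mem_comap, map_mul, map_inv] at h6
    convert h6 using 2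
    refine Subtype.ext (Units.ext ?_)
    have h7 := H73.mem_muU.1 (H73.detU hF 3 g).2
    change ((GeneralLinearGroup.det g.1 : Fˣ) : F) =
      (((GeneralLinearGroup.det (H73.gammaAct (Fin 3) F γ.1 g.1))⁻¹ : Fˣ) : F)
    change ((GeneralLinearGroup.det g.1 : Fˣ) : F) ^ 2 ^ n =
      ((GeneralLinearGroup.det g.1 : Fˣ) : F)⁻¹ at h7
    rw [H73.det_gammaAct, h5, Units.val_inv_eq_inv_val, Units.coe_map, MonoidHom.coe_coe,
      H26.frobE_apply, h7, inv_inv]

theorem rawU3 : RawFor.{u} fun S _ => IsU3E S := by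
  rintro S _ _ - - ⟨F, _, _, n, hn, hF, ⟨e⟩⟩
  exact Raw.congr e.symm (raw_u3 hn hF)

end Cfsg.Agent.H22.EvRaw
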