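import Mathlib
import Cfsg.Agent.H80.F23Kit

/-!
# Rational groups of degree 23: Schur's lemma, averaging, elements of prime power order
-/

set_option autoImplicit false

namespace Cfsg.Agent.H22.F23R

open Module Polynomial Cfsg.Agent.H80.F23

universe u

theorem finrank_V : finrank ℚ V = 23 := by simp [V]

theorem root_pm {K : Type} [Field K] [inst : Algebra ℚ K] (hK : finrank ℚ K = 23) {k : K} {n : ℕ}
    (hn : 0 < n) (h : k ^ n = 1) : k = 1 ∨ k = -1 := by
  have : CharZero K := algebraRat.charZero K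
  obtain rfl : inst = DivisionRing.toRatAlgebra := Subsingleton.elim _ _
  have hf : FiniteDimensional ℚ K := FiniteDimensional.of_finrank_pos (by omega)
  have hfin : IsOfFinOrder k := isOfFinOrder_iff_pow_eq_one.2 ⟨n, hn, h⟩
  have hp := IsPrimitiveRoot.orderOf k
  have h1 := cyclotomic_eq_minpoly_rat hp hfin.orderOf_pos
  have h2 := minpoly.degree_dvd (K := ℚ) (x := k) (Algebra.IsIntegral.isIntegral k)
  rw [← h1, natDegree_cyclotomic, hK] at h2
  have h3 : orderOf k ≤ 2 := by
    by_contra h3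
    have := (Nat.totient_even (not_le.1 h3)).two_dvd.trans h2
    omega
  have h4 : k ^ 2 = 1 := by
    have h5 := pow_orderOf_eq_one k
    have h6 := hfin.orderOf_pos
    have : orderOf k = 1 ∨ orderOf k = 2 := by omega
    rcases this with e | e
    · rw [e, pow_one] at h5
      rw [h5, one_pow]
    · rwa [e] at h5
  exact mul_self_eq_one_iff.1 (by rw [← sq, h4])

theorem fld {K : Type} [Field K] [Algebra ℚ K] (f : K →ₐ[ℚ] End ℚ V) :
    finrank ℚ K = 1 ∨
      (finrank ℚ K = 23 ∧ ∀ T : End ℚ V, (∀ k, T * f k = f k * T) → ∃ k, T = f k) := by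
  letI : Module K V := Module.compHom V f.toRingHom
  have hs : ∀ (k : K) (v : V), k • v = f k v := fun _ _ => rfl
  have : IsScalarTower ℚ K V := ⟨fun c k v => by rw [hs, hs, map_smul, LinearMap.smul_apply]⟩
  have h := Module.finrank_mul_finrank ℚ K V
  rw [finrank_V] at h
  have hp : Nat.Prime 23 := by norm_num
  rcases (Nat.dvd_prime hp).1 ⟨_, h.symm⟩ with e | e
  · exact Or.inl e
  · refine Or.inr ⟨e, fun T hT => ?_⟩
    have h1 : finrank K V = 1 := by
      rw [e] at h
      omega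
    obtain ⟨v, -, hv⟩ := finrank_eq_one_iff'.1 h1
    obtain ⟨k, hk⟩ := hv (T v)
    refine ⟨k, LinearMap.ext fun w => ?_⟩
    obtain ⟨c, rfl⟩ := hv w
    rw [hs c v, ← End.mul_apply, hT, End.mul_apply, ← hk, hs, ← End.mul_apply, ← End.mul_apply,
      ← map_mul, ← map_mul, mul_comm]

variable {G : Type u} [Group G] {ρ : Representation ℚ G V}

theorem inj_of_comm (hi : Irr ρ) {φ : End ℚ V} (h : ∀ g, ρ g * φ = φ * ρ g) (h0 : φ ≠ 0) :
    Function.Injective φ := by
  rcases hi (LinearMap.ker φ) (fun g w hw => by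
    rw [LinearMap.mem_ker] at hw ⊢
    rw [← End.mul_apply, ← h, End.mul_apply, hw, map_zero]) with e | e
  · exact LinearMap.ker_eq_bot.1 e
  · exact absurd (LinearMap.ker_eq_top.1 e) h0

open scoped IsMulCommutative in
theorem schur [Finite G] (hi : Irr ρ) {φ : End ℚ V} (h : ∀ g, ρ g * φ = φ * ρ g) :
    ∃ c : ℚ, φ = c • (1 : End ℚ V) := by
  let A : Subalgebra ℚ (End ℚ V) := Algebra.adjoin ℚ {φ}
  have hA : ∀ k : A, ∀ g, ρ g * k = k * ρ g := fun k g => by
    have : A ≤ Subalgebra.centralizer ℚ (Set.range ρ) := by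
      refine Algebra.adjoin_le ?_
      rintro _ rfl _ ⟨g, rfl⟩
      exact h g
    exact this k.2 _ ⟨g, rfl⟩
  have : NoZeroDivisors A := ⟨fun {a b} e => by
    by_contra hc
    push Not at hc
    have ha := inj_of_comm hi (hA a) (fun e => hc.1 (Subtype.ext e))
    refine hc.2 (Subtype.ext (LinearMap.ext fun v => ha ?_))
    have := congrArg (fun t : A => (t : End ℚ V) v) e
    simpa using this⟩
  have : IsDomain A := NoZeroDivisors.to_isDomain A
  letI : Field A := fieldOfFiniteDimensional ℚ A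
  rcases fld A.val with e | ⟨e, k⟩
  · obtain ⟨c, hc⟩ := (finrank_eq_one_iff_of_nonzero' (1 : A) one_ne_zero).1 e
      ⟨φ, Algebra.self_mem_adjoin_singleton ℚ φ⟩
    exact ⟨c, (congrArg Subtype.val hc).symm⟩
  · exfalso
    have h1 : ∀ g, ρ g = 1 ∨ ρ g = -1 := fun g => by
      obtain ⟨t, ht⟩ := k (ρ g) fun t => hA t g
      have h2 : t ^ orderOf g = 1 := by
        apply Subtype.ext
        have : A.val (t ^ orderOf g) = 1 := by
          rw [map_pow, ← ht, ← map_pow, pow_orderOf_eq_one, map_one]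
        exact this
      rcases root_pm e (orderOf_pos g) h2 with rfl | rfl
      · exact Or.inl ht
      · exact Or.inr ht
    have h2 : (Pi.single 0 1 : V) ≠ 0 := by simp
    rcases hi (Submodule.span ℚ {Pi.single 0 1}) (fun g w hw => by
      rcases h1 g with e | e
      · rwa [e]
      · rw [e]
        exact Submodule.neg_mem _ hw) with e | e
    · exact h2 (Submodule.span_singleton_eq_bot.1 e)
    · exact Irr.span_ne_top _ e

theorem avg [Fintype G] (hi : Irr ρ) (φ : End ℚ V) :
    ∑ h, ρ h * φ * ρ h⁻¹ = (Fintype.card G / 23 * LinearMap.trace ℚ V φ : ℚ) • (1 : End ℚ V) := by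
  obtain ⟨c, hc⟩ := schur hi (φ := ∑ h, ρ h * φ * ρ h⁻¹) fun g => by
    rw [Finset.mul_sum, Finset.sum_mul]
    refine Fintype.sum_equiv (Equiv.mulLeft g) _ _ fun h => ?_
    simp only [Equiv.coe_mulLeft, mul_inv_rev, map_mul, mul_assoc]
    rw [← map_mul ρ g⁻¹ g, inv_mul_cancel, map_one, mul_one]
  have h1 := congrArg (LinearMap.trace ℚ V) hc
  rw [map_sum, map_smul, LinearMap.trace_one, finrank_V] at h1
  have h2 : ∀ h, LinearMap.trace ℚ V (ρ h * φ * ρ h⁻¹) = LinearMap.trace ℚ V φ := fun h => by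
    rw [LinearMap.trace_mul_comm, ← mul_assoc, ← map_mul, inv_mul_cancel, map_one, one_mul]
  simp only [h2, Finset.sum_const, Finset.card_univ, nsmul_eq_mul, smul_eq_mul] at h1
  rw [hc]
  congr 1
  push_cast at h1
  linarith

theorem design [Fintype G] (hi : Irr ρ) {B : LinearMap.BilinForm ℚ V}
    (hB : ∀ h x y, B (ρ h x) (ρ h y) = B x y) (x y z : V) :
    ∑ h, B x (ρ h y) • ρ h z = (Fintype.card G / 23 * B z y : ℚ) • x := by
  have h := congrArg (fun t : End ℚ V => t x) (avg hi ((B.flip y).smulRight z))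
  simp only [LinearMap.trace_smulRight, LinearMap.sum_apply, End.mul_apply, LinearMap.smulRight_apply,
    map_smul, LinearMap.smul_apply, End.one_apply, LinearMap.BilinForm.flip_apply] at h
  rw [← h]
  refine Finset.sum_congr rfl fun g _ => ?_
  rw [← hB g (ρ g⁻¹ x), ← End.mul_apply, ← map_mul, mul_inv_cancel, map_one, End.one_apply]

theorem cyc_dvd {T : End ℚ V} {p k : ℕ} (hp : p.Prime) (h1 : T ^ p ^ (k + 1) = 1) (h2 : T ^ p ^ k ≠ 1) :
    cyclotomic (p ^ (k + 1)) ℚ ∣ T.charpoly := by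
  have : Fact p.Prime := ⟨hp⟩
  refine Dvd.dvd.trans ?_ (LinearMap.minpoly_dvd_charpoly T)
  by_contra h
  have h3 : minpoly ℚ T ∣ cyclotomic (p ^ (k + 1)) ℚ * (X ^ p ^ k - 1) := by
    rw [cyclotomic_prime_pow_mul_X_pow_sub_one]
    exact minpoly.dvd _ _ (by simp [h1])
  have h4 := ((cyclotomic.irreducible_rat (pow_pos hp.pos (k + 1))).isCoprime_or_dvd (minpoly ℚ T)).resolve_right h
  obtain ⟨q, hq⟩ := h4.symm.dvd_of_dvd_mul_left h3
  have h5 := congrArg (aeval T) hq
  simp only [map_sub, map_pow, aeval_X, map_one, map_mul, minpoly.aeval, zero_mul] at h5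
  exact h2 (sub_eq_zero.1 h5)

theorem totient_le {T : End ℚ V} {p k : ℕ} (hp : p.Prime) (h1 : T ^ p ^ (k + 1) = 1)
    (h2 : T ^ p ^ k ≠ 1) : p ^ k * (p - 1) ≤ 23 := by
  have h := natDegree_le_of_dvd (cyc_dvd hp h1 h2) T.charpoly_monic.ne_zero
  rwa [natDegree_cyclotomic, LinearMap.charpoly_natDegree, finrank_V, Nat.totient_prime_pow_succ hp] at h

theorem trace_zero {T : End ℚ V} (h1 : T ^ 23 = 1) (h2 : T ≠ 1) : LinearMap.trace ℚ V T = 0 := by
  have hp : Nat.Prime 23 := by norm_num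
  have : Fact (Nat.Prime 23) := ⟨hp⟩
  obtain ⟨q, hq⟩ := cyc_dvd (k := 0) hp (by simpa using h1) (by simpa using h2)
  rw [zero_add, pow_one] at hq
  have hm : q.Monic := (cyclotomic.monic 23 ℚ).of_mul_monic_left (hq ▸ T.charpoly_monic)
  have hd : q.natDegree = 1 := by
    have := congrArg natDegree hq
    rw [(cyclotomic.monic 23 ℚ).natDegree_mul hm, natDegree_cyclotomic, LinearMap.charpoly_natDegree,
      finrank_V, Nat.totient_prime hp] at this
    omega
  have he := hm.eq_X_add_C hd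
  have hr : T.charpoly.IsRoot (-q.coeff 0) := by
    rw [hq, IsRoot.def, eval_mul, he]
    simp
  obtain ⟨v, hv⟩ := ((End.hasEigenvalue_iff_isRoot_charpoly T _).2 hr).exists_hasEigenvector
  have h3 := hv.pow_apply 23
  rw [h1, End.one_apply] at h3
  have h4 : (-q.coeff 0) ^ 23 = 1 := by
    have : ((-q.coeff 0) ^ 23 - 1) • v = 0 := by rw [sub_smul, ← h3, one_smul, sub_self]
    exact sub_eq_zero.1 ((smul_eq_zero.1 this).resolve_right hv.2)
  have h5 : q.coeff 0 = -1 := by
    rcases (pow_eq_one_iff_of_ne_zero (by norm_num)).1 h4 with e | ⟨-, e⟩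
    · linarith
    · exact absurd e (by decide)
  have h6 : T.charpoly = X ^ 23 - 1 := by
    rw [hq, he, h5, ← cyclotomic_prime_mul_X_sub_one ℚ 23, C_neg, C_1, sub_eq_add_neg]
  rw [LinearMap.trace_eq_matrix_trace ℚ (Pi.basisFun ℚ (Fin 23)), Matrix.trace_eq_neg_charpoly_coeff,
    LinearMap.charpoly_toMatrix, h6]
  simp [coeff_X_pow, coeff_one]

theorem sum_sub (hρ : Function.Injective ρ) (P : Subgroup G) [Finite P] (h : ∀ g : P, g ^ 23 = 1) :
    23 = Nat.card P * finrank ℚ (Representation.invariants (ρ.comp P.subtype)) := by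
  classical
  have := Fintype.ofFinite P
  have h0 : (Nat.card P : ℚ) ≠ 0 := by exact_mod_cast Nat.card_pos.ne'
  let _ := invertibleOfNonzero h0
  have h1 := Representation.card_inv_mul_sum_char_eq_finrank (k := ℚ) (G := P) (V := V) (ρ.comp P.subtype)
  rw [Finset.sum_eq_single 1, Representation.char_one, finrank_V] at h1
  · have h2 : (23 : ℚ) = Nat.card P * finrank ℚ (Representation.invariants (ρ.comp P.subtype)) := by
      rw [← h1]
      field_simp
      norm_num
    exact_mod_cast h2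
  · intro g _ hg
    refine trace_zero (T := ρ g) ?_ fun e => hg (Subtype.ext (hρ (e.trans (map_one ρ).symm)))
    rw [← map_pow, ← Subgroup.coe_pow, h g, Subgroup.coe_one, map_one]
  · simp

end Cfsg.Agent.H22.F23R
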