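import Mathlib
import Cfsg.Agent.H22.F23Rep1

/-!
# Rational groups of degree 23: the invariant form, the lattice, the element of order 23
-/

set_option autoImplicit false

namespace Cfsg.Agent.H22.F23R

open Module Cfsg.Agent.H80.F23

universe u

variable {G : Type u} [Group G] {ρ : Representation ℚ G V}

/-- The averaged form. -/
noncomputable def B0 [Fintype G] (ρ : Representation ℚ G V) : LinearMap.BilinForm ℚ V :=
  ∑ h, (dotProductBilin ℚ ℚ).compl₁₂ (ρ h) (ρ h)

theorem B0_apply [Fintype G] (x y : V) : B0 ρ x y = ∑ h, ρ h x ⬝ᵥ ρ h y := by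
  simp [B0, LinearMap.sum_apply]

theorem B0_inv [Fintype G] (g : G) (x y : V) : B0 ρ (ρ g x) (ρ g y) = B0 ρ x y := by
  rw [B0_apply, B0_apply]
  refine Fintype.sum_equiv (Equiv.mulRight g) _ _ fun h => ?_
  simp

theorem B0_pd [Fintype G] : PD (B0 ρ) := by
  refine ⟨fun x y => ?_, fun x hx => ?_⟩
  · simp only [B0_apply, dotProduct_comm]
  · rw [B0_apply]
    have h0 : ∀ v : V, 0 ≤ v ⬝ᵥ v := fun v => Finset.sum_nonneg fun i _ => mul_self_nonneg _
    refine Finset.sum_pos' (fun h _ => h0 _) ⟨1, Finset.mem_univ _, ?_⟩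
    rw [map_one, End.one_apply]
    exact lt_of_le_of_ne (h0 x) fun e => hx (dotProduct_self_eq_zero.1 e.symm)

theorem exists_lat [Fintype G] : ∃ (B : LinearMap.BilinForm ℚ V) (L : Submodule ℤ V), PD B ∧
    (∀ h x y, B (ρ h x) (ρ h y) = B x y) ∧ IntLat B L ∧ Full L ∧ LInv ρ L := by
  let s : G × Fin 23 → V := fun p => ρ p.1 (Pi.single p.2 1)
  obtain ⟨b, hb⟩ := IsLocalization.exist_integer_multiples_of_finite (nonZeroDivisors ℤ)
    (S := ℚ) (fun p : (G × Fin 23) × (G × Fin 23) => B0 ρ (s p.1) (s p.2))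
  have hb0 : ((b : ℤ) : ℚ) ≠ 0 := by exact_mod_cast nonZeroDivisors.coe_ne_zero b
  refine ⟨(((b : ℤ) : ℚ) ^ 2) • B0 ρ, Submodule.span ℤ (Set.range s), B0_pd.smul (by positivity),
    fun h x y => by simp [B0_inv], ⟨Submodule.fg_span (Set.finite_range s), fun x hx y hy => ?_⟩, ?_,
    fun h x hx => ?_⟩
  · induction hx using Submodule.span_induction with
    | mem x hx =>
      obtain ⟨p, rfl⟩ := hx
      induction hy using Submodule.span_induction with
      | mem y hy =>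
        obtain ⟨q, rfl⟩ := hy
        obtain ⟨k, hk⟩ := hb (p, q)
        refine ⟨b * k, ?_⟩
        simp only [eq_intCast, zsmul_eq_mul] at hk
        simp only [LinearMap.smul_apply, smul_eq_mul, Int.cast_mul, hk]
        ring
      | zero => exact ⟨0, by simp⟩
      | add y z _ _ h1 h2 =>
        obtain ⟨k, hk⟩ := h1
        obtain ⟨l, hl⟩ := h2
        exact ⟨k + l, by rw [map_add, hk, hl, Int.cast_add]⟩
      | smul a y _ h1 =>
        obtain ⟨k, hk⟩ := h1
        exact ⟨a * k, by rw [map_zsmul, hk, zsmul_eq_mul, Int.cast_mul]⟩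
    | zero => exact ⟨0, by simp⟩
    | add x z _ _ h1 h2 =>
      obtain ⟨k, hk⟩ := h1
      obtain ⟨l, hl⟩ := h2
      exact ⟨k + l, by rw [map_add, LinearMap.add_apply, hk, hl, Int.cast_add]⟩
    | smul a x _ h1 =>
      obtain ⟨k, hk⟩ := h1
      exact ⟨a * k, by rw [map_zsmul, LinearMap.smul_apply, hk, zsmul_eq_mul, Int.cast_mul]⟩
  · refine eq_top_iff.2 ?_
    rw [← (Pi.basisFun ℚ (Fin 23)).span_eq]
    refine Submodule.span_mono ?_
    rintro _ ⟨i, rfl⟩
    exact Submodule.subset_span ⟨(1, i), by simp [s]⟩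
  · induction hx using Submodule.span_induction with
    | mem x hx =>
      obtain ⟨p, rfl⟩ := hx
      exact Submodule.subset_span ⟨(h * p.1, p.2), by simp [s]⟩
    | zero => simp
    | add x z _ _ h1 h2 =>
      rw [map_add]
      exact Submodule.add_mem _ h1 h2
    | smul a x _ h1 =>
      rw [map_zsmul]
      exact Submodule.smul_mem _ a h1

theorem dvd_card [Fintype G] (hi : Irr ρ) {B : LinearMap.BilinForm ℚ V} {L : Submodule ℤ V}
    (hB : PD B) (h1 : ∀ h x y, B (ρ h x) (ρ h y) = B x y) (h2 : IntLat B L) (h3 : Full L)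
    (h4 : LInv ρ L) : 23 ∣ Fintype.card G := by
  obtain ⟨u, hu, hu0⟩ : ∃ u ∈ L, u ≠ 0 := by
    by_contra h
    push Not at h
    have : L = ⊥ := (Submodule.eq_bot_iff _).2 h
    rw [Full, this] at h3
    simp at h3
  let I : Ideal ℤ := (L.map ((B.flip u).restrictScalars ℤ)).comap (Algebra.linearMap ℤ ℚ)
  have hI : ∀ k : ℤ, k ∈ I ↔ ∃ x ∈ L, B x u = k := fun k => by simp [I]
  obtain ⟨r, hr⟩ := (IsPrincipalIdealRing.principal I).principal
  have h5 : ∀ x ∈ L, ∃ k : ℤ, B x u = k * r := fun x hx => by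
    obtain ⟨k, hk⟩ := h2.int x hx u hu
    have : k ∈ I := (hI k).2 ⟨x, hx, hk⟩
    rw [hr] at this
    obtain ⟨a, ha⟩ := Ideal.mem_span_singleton'.1 this
    exact ⟨a, by rw [hk, ← ha, Int.cast_mul]⟩
  obtain ⟨z, hz, hzr⟩ := (hI r).1 (hr ▸ Ideal.mem_span_singleton_self r)
  have hr0 : (r : ℚ) ≠ 0 := fun e => by
    obtain ⟨k, hk⟩ := h5 u hu
    rw [e, mul_zero] at hk
    exact (hB.pos u hu0).ne' hk
  have h6 := congrArg (fun v => B v u) (design hi h1 z u z)
  simp only [map_sum, LinearMap.sum_apply, map_smul, LinearMap.smul_apply, smul_eq_mul, hzr] at h6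
  choose k hk using fun h : G => h5 _ (h4 h z hz)
  have h7 : ∀ h, B z (ρ h u) = k h⁻¹ * r := fun h => by
    rw [← hk, ← h1 h (ρ h⁻¹ z), ← End.mul_apply, ← map_mul, mul_inv_cancel, map_one, End.one_apply]
  simp only [h7, hk] at h6
  have h8 : (Fintype.card G : ℚ) = 23 * ((∑ h, k h⁻¹ * k h : ℤ) : ℚ) := by
    have h9 : ∑ h, (k h⁻¹ : ℚ) * r * (k h * r) = ((∑ h, k h⁻¹ * k h : ℤ) : ℚ) * r * r := by
      push_cast
      rw [Finset.sum_mul, Finset.sum_mul]
      exact Finset.sum_congr rfl fun h _ => by ring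
    rw [h9] at h6
    have := mul_right_cancel₀ hr0 (mul_right_cancel₀ hr0 h6)
    linarith
  have h10 : (Fintype.card G : ℤ) = 23 * ∑ h, k h⁻¹ * k h := by exact_mod_cast h8
  exact Int.natCast_dvd_natCast.1 ⟨_, h10⟩

theorem not_dvd [Fintype G] (hρ : Function.Injective ρ) : ¬ 23 ^ 2 ∣ Fintype.card G := fun h => by
  have hp : Nat.Prime 23 := by norm_num
  have : Fact (Nat.Prime 23) := ⟨hp⟩
  rw [Fintype.card_eq_nat_card] at h
  obtain ⟨P, hP⟩ := Sylow.exists_subgroup_card_pow_prime 23 h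
  have h1 := sum_sub hρ P fun g => by
    by_contra hg
    have h2 : ρ g ^ 23 ^ (1 + 1) = 1 := by
      rw [← map_pow, ← Subgroup.coe_pow, ← hP, pow_card_eq_one', Subgroup.coe_one, map_one]
    have h3 : ρ g ^ 23 ^ 1 ≠ 1 := fun e => hg (Subtype.ext (hρ (by
      rw [Subgroup.coe_pow, map_pow, Subgroup.coe_one, map_one]
      simpa using e)))
    have := totient_le hp h2 h3
    omega
  rw [hP] at h1
  omega

theorem repStmt : RepStmt.{u} := by
  intro G _ _ ρ hρ hi
  have hp : Nat.Prime 23 := by norm_num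
  have : Fact (Nat.Prime 23) := ⟨hp⟩
  obtain ⟨B, L, h1, h2, h3, h4, h5⟩ := exists_lat (ρ := ρ)
  obtain ⟨m, hm⟩ := dvd_card hi h1 h2 h3 h4 h5
  obtain ⟨g, hg⟩ := exists_prime_orderOf_dvd_card (G := G) 23 ⟨m, hm⟩
  refine ⟨B, g, m, L, ⟨hρ, hi, h1, h2, hg, ?_⟩, fun B' hB' x y z => ?_, fun q hq hqm => ?_, h3, h4, h5⟩
  · have h6 := sum_sub hρ (Subgroup.zpowers g) fun t => by
      rw [← hg, ← Nat.card_zpowers, pow_card_eq_one']
    rw [Nat.card_zpowers, hg] at h6
    obtain ⟨w, hw, k⟩ := finrank_eq_one_iff'.1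
      (show finrank ℚ (Representation.invariants (ρ.comp (Subgroup.zpowers g).subtype)) = 1 by omega)
    have hw1 : ρ g w = w := w.2 ⟨g, Subgroup.mem_zpowers g⟩
    refine ⟨w, fun e => hw (Subtype.ext e), fun x => ⟨fun hx => ?_, ?_⟩⟩
    · have hx' : x ∈ Representation.invariants (ρ.comp (Subgroup.zpowers g).subtype) := by
        rintro ⟨t, ht⟩
        obtain ⟨n, rfl⟩ := (mem_powers_iff_mem_zpowers.2 ht : t ∈ Submonoid.powers g)
        change ρ (g ^ n) x = x
        clear ht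
        induction n with
        | zero => simp
        | succ n ih => rw [pow_succ, map_mul, End.mul_apply, hx, ih]
      obtain ⟨c, hc⟩ := k ⟨x, hx'⟩
      exact ⟨c, (congrArg Subtype.val hc).symm⟩
    · rintro ⟨c, rfl⟩
      rw [map_smul, hw1]
  · rw [design hi hB', hm]
    congr 2
    push_cast
    ring
  · have : Fact q.Prime := ⟨hq⟩
    obtain ⟨t, ht⟩ := exists_prime_orderOf_dvd_card (G := G) q (hm ▸ hqm.mul_left 23)
    have h6 : ρ t ^ q ^ (0 + 1) = 1 := by
      rw [zero_add, pow_one, ← map_pow, ← ht, pow_orderOf_eq_one, map_one]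
    have h7 : ρ t ^ q ^ 0 ≠ 1 := fun e => by
      rw [pow_zero, pow_one, ← map_one ρ] at e
      rw [hρ e, orderOf_one] at ht
      exact hq.one_lt.ne ht
    have h8 := totient_le hq h6 h7
    rw [pow_zero, one_mul] at h8
    have h9 : q ≠ 23 := by
      rintro rfl
      exact not_dvd hρ (hm ▸ (sq 23).symm ▸ Nat.mul_dvd_mul_left 23 hqm)
    have h10 : q ≠ 24 := by
      rintro rfl
      exact absurd hq (by norm_num)
    omega

end Cfsg.Agent.H22.F23R
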