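import Cfsg.Agent.H28.SUmk
import Cfsg.Agent.S0242
import Cfsg.Agent.H8.SylowIn

/-! Elements of `SL₃(4)`. -/

set_option autoImplicit false

namespace Cfsg.Agent.H22.L34

open Matrix Subgroup H28 H8
open scoped MatrixGroups Pointwise

/-- the group -/
abbrev Γ : Type := SL(3, K4)
/-- the parameters of the elementary abelian group -/
abbrev W : Type := K4 × K4

/-- a generator of the field -/
def ω : K4 := dec4 2

/-- unitriangular matrices -/
def u (a b c : K4) : Γ := ⟨!![1, a, b; 0, 1, c; 0, 0, 1], by simp [det_fin_three]⟩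

/-- the elementary abelian group of order sixteen -/
def e (v : W) : Γ := u v.1 v.2 0

/-- an element of order five -/
def y : Γ := ⟨!![1, 0, 0; 0, 0, 1; 0, 1, ω], by decide +kernel⟩
/-- an element inverting it -/
def n5 : Γ := ⟨!![1, 0, 0; 0, 0, 1; 0, 1, 0], by decide +kernel⟩
/-- an element of order seven -/
def c7 : Γ := ⟨!![0, 0, 1; 1, 0, 1; 0, 1, 0], by decide +kernel⟩
/-- an element squaring it -/
def n7 : Γ := ⟨!![1, 0, 0; 0, 0, 1; 0, 1, 1], by decide +kernel⟩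
/-- the action of `y` -/
def L (v : W) : W := (v.1 * ω + v.2, v.1)

theorem u_mul (a b c a' b' c' : K4) : u a b c * u a' b' c' = u (a + a') (b + b' + a * c') (c + c') := by
  apply Subtype.ext
  rw [Matrix.SpecialLinearGroup.coe_mul]
  ext i j
  fin_cases i <;> fin_cases j <;> simp [u, Matrix.mul_apply, Fin.sum_univ_three] <;> ring

theorem u_zero : u 0 0 0 = 1 := by decide +kernel

theorem e_add (v w : W) : e (v + w) = e v * e w := by simp [e, u_mul]

theorem e_zero : e 0 = 1 := u_zero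

theorem two (a : K4) : a + a = 0 := by revert a; decide +kernel

theorem W_two (v : W) : v + v = 0 := Prod.ext (two _) (two _)

theorem e_inv (v : W) : (e v)⁻¹ = e v := inv_eq_of_mul_eq_one_right (by rw [← e_add, W_two, e_zero])

theorem e_center {v : W} (h : e v ∈ center Γ) : v = 0 := by
  obtain ⟨r, -, hr⟩ := Matrix.SpecialLinearGroup.mem_center_iff.1 h
  have h1 := congrFun (congrFun hr 0) 1
  have h2 := congrFun (congrFun hr 0) 2
  simp [e, u] at h1 h2
  exact Prod.ext h1.symm h2.symm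

theorem y_pow : y ^ 5 = 1 := by decide +kernel
theorem y_ne : y ≠ 1 := by decide +kernel
theorem c7_pow : c7 ^ 7 = 1 := by decide +kernel
theorem c7_ne : c7 ≠ 1 := by decide +kernel
theorem n5_y : n5 * y = y ^ 4 * n5 := by decide +kernel
theorem n7_c : n7 * c7 = c7 ^ 2 * n7 := by decide +kernel
theorem y_e : ∀ i : Fin 5, ∀ v, y ^ i.1 * e v = e (L^[i.1] v) * y ^ i.1 := by decide +kernel
theorem L_fix : ∀ i : Fin 5, i ≠ 0 → (Finset.univ.filter fun v => L^[i.1] v = v).card = 1 := by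
  decide +kernel
theorem L_surj : ∀ w, ∃ v, L v = w := by decide +kernel
theorem L_span : ∀ v : W, v ≠ 0 → ∀ w, ∃ b₀ b₁ b₂ b₃ : Bool, w = (if b₀ then v else 0) +
    (if b₁ then L v else 0) + (if b₂ then L (L v) else 0) + (if b₃ then L (L (L v)) else 0) := by
  decide +kernel
theorem u_e (a b c : K4) (v : W) : u a b c * e v = e (v.1, v.2 + v.1 * c) * u a b c := by
  simp only [e, u_mul]
  congr 1
  · ring
  · linear_combination (-1 : K4) * two (v.1 * c)
  · ring
theorem u_fix : ∀ c : K4, c ≠ 0 → (Finset.univ.filter fun v : W => (v.1, v.2 + v.1 * c) = v).card = 4 := by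
  decide +kernel
theorem u_sq (a b c : K4) : u a b c * u a b c = e (0, a * c) := by
  rw [u_mul, two, two, two, zero_add, e]
theorem u_conj : ∀ b c : K4, c ≠ 0 → ∃ h : Γ, h * e (0, 1) = u 0 b c * h := fun b c hc =>
  ⟨⟨!![b, c⁻¹, 0; c, 0, 0; 0, 0, 1], by
    revert b c
    decide +kernel⟩, by
    revert b c
    decide +kernel⟩

/-- one step of the recursion for powers -/
def st (a b : K4) (p : K4 × K4 × K4) : K4 × K4 × K4 := (p.1 * a + p.2.1, p.1 * b + p.2.2, p.1)

theorem st_tab : ∀ a b : K4, ∃ m ∈ [3, 4, 5, 7], ((st a b)^[m] (0, 0, 1)).1 = 0 ∧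
    ((st a b)^[m] (0, 0, 1)).2.1 = 0 ∧ ((st a b)^[m] (0, 0, 1)).2.2 ^ 3 = 1 := by decide +kernel

theorem ch3 {R : Type*} [CommRing R] (M : Matrix (Fin 3) (Fin 3) R) :
    M * M * M = M.trace • (M * M) + (-M.adjugate.trace) • M + M.det • (1 : Matrix (Fin 3) (Fin 3) R) := by
  ext i j
  fin_cases i <;> fin_cases j <;>
    simp [Matrix.mul_apply, Fin.sum_univ_three, det_fin_three, trace_fin_three, adjugate_fin_three] <;>
    ring

theorem pow_center (x : Γ) : ∃ m ∈ [3, 4, 5, 7], x ^ m ∈ center Γ := by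
  have h := ch3 x.1
  rw [x.2, one_smul] at h
  generalize x.1.trace = a at h
  generalize -x.1.adjugate.trace = b at h
  have h1 : ∀ n, x.1 ^ n = ((st a b)^[n] (0, 0, 1)).1 • (x.1 * x.1) + ((st a b)^[n] (0, 0, 1)).2.1 • x.1 +
      ((st a b)^[n] (0, 0, 1)).2.2 • (1 : Matrix (Fin 3) (Fin 3) K4) := fun n => by
    induction n with
    | zero => simp
    | succ n ih =>
      rw [pow_succ, ih, Function.iterate_succ_apply']
      simp only [st, add_mul, smul_mul_assoc, h, one_mul]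
      module
  obtain ⟨m, hm, k1, k2, k3⟩ := st_tab a b
  refine ⟨m, hm, Matrix.SpecialLinearGroup.mem_center_iff.2 ⟨_, by simpa using k3, ?_⟩⟩
  rw [Matrix.SpecialLinearGroup.coe_pow, h1, k1, k2]
  simp [Matrix.smul_one_eq_diagonal]

theorem center_pow {x : Γ} (h : x ∈ center Γ) : x ^ 3 = 1 := by
  obtain ⟨r, h1, h2⟩ := Matrix.SpecialLinearGroup.mem_center_iff.1 h
  apply Subtype.ext
  rw [Matrix.SpecialLinearGroup.coe_pow, ← h2, ← map_pow, show r ^ 3 = 1 by simpa using h1, map_one]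
  rfl

theorem card_Γ : Nat.card Γ = 60480 := by
  have := S0242.result card_K4 3 (by norm_num)
  rw [Fin.prod_univ_three] at this
  change 3 * Nat.card Γ = 63 * 60 * 48 at this
  omega

theorem conj_of_syl {p k : ℕ} (hp : p.Prime) {S : Subgroup Γ} (hS : Nat.card S = p ^ k)
    (h : ¬ p ^ (k + 1) ∣ 60480) {x : Γ} {j : ℕ} (hx : x ^ p ^ j = 1) : ∃ g : Γ, g * x * g⁻¹ ∈ S := by
  have : Fact p.Prime := ⟨hp⟩
  have h1 : IsSylowIn p S ⊤ := ⟨le_top, IsPGroup.of_card hS, fun k => h (by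
    rw [relIndex_top_right] at k
    rw [← card_Γ, ← S.card_mul_index, hS, pow_succ]
    exact Nat.mul_dvd_mul_left _ k)⟩
  obtain ⟨g, -, hg⟩ := h1.exists_conj_le (Q := zpowers x) (fun t => ⟨j, Subtype.ext (by
    obtain ⟨_, n, rfl⟩ := t
    change (x ^ n) ^ p ^ j = 1
    rw [← zpow_natCast, ← _root_.zpow_mul, mul_comm, _root_.zpow_mul, zpow_natCast, hx, _root_.one_zpow])⟩) le_top
  exact ⟨g, hg (conj_mem_conj_smul.2 (mem_zpowers x))⟩

theorem conj_cyc {p : ℕ} (hp : p.Prime) {c : Γ} (h1 : c ^ p = 1) (h2 : c ≠ 1) (h : ¬ p ^ 2 ∣ 60480)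
    {x : Γ} (hx : x ^ p = 1) : ∃ g : Γ, ∃ i < p, g * x * g⁻¹ = c ^ i := by
  have : Fact p.Prime := ⟨hp⟩
  obtain ⟨g, hg⟩ := conj_of_syl (k := 1) (j := 1) hp (S := zpowers c)
    (by rw [Nat.card_zpowers, orderOf_eq_prime h1 h2, pow_one]) h (by rwa [pow_one])
  obtain ⟨n, hn⟩ := (mem_powers_iff_mem_zpowers.2 hg : _ ∈ Submonoid.powers c)
  exact ⟨g, n % p, Nat.mod_lt _ hp.pos, by rw [← pow_eq_pow_mod n h1]; exact hn.symm⟩

/-- the unitriangular group -/
def S : Subgroup Γ where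
  carrier := Set.range fun p : K4 × K4 × K4 => u p.1 p.2.1 p.2.2
  one_mem' := ⟨0, u_zero⟩
  mul_mem' := by
    rintro _ _ ⟨p, rfl⟩ ⟨q, rfl⟩
    exact ⟨(_, _, _), (u_mul _ _ _ _ _ _).symm⟩
  inv_mem' := by
    rintro _ ⟨p, rfl⟩
    refine ⟨(-p.1, p.1 * p.2.2 - p.2.1, -p.2.2), eq_inv_of_mul_eq_one_right ?_⟩
    rw [u_mul, ← u_zero]
    congr 1 <;> ring

theorem conj_two {x : Γ} (hx : x ^ 4 = 1) : ∃ g : Γ, ∃ a b c, g * x * g⁻¹ = u a b c := by
  obtain ⟨g, p, hp⟩ := conj_of_syl (k := 6) (j := 2) Nat.prime_two (S := S) (by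
    change Nat.card (Set.range _) = _
    rw [Nat.card_range_of_injective, Nat.card_eq_fintype_card]
    · simp [card_K4]
    · intro p q h
      have h1 := congrArg (fun x : Γ => (x.1 0 1, x.1 0 2, x.1 1 2)) h
      simpa [u] using h1) (by norm_num) hx
  exact ⟨g, _, _, _, hp.symm⟩

end Cfsg.Agent.H22.L34
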