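import Cfsg.Agent.H22.QtKit
import Cfsg.Agent.H35.RfQ

/-!
# Project RF: squares in the complement `Q`, cocode case
-/

set_option autoImplicit false
set_option maxRecDepth 1000000

namespace Cfsg.Agent.H22.Qc3

open Cfsg Subgroup Cfsg.Agent.H18.Rf Cfsg.Agent.H35.RF
open Cfsg.Agent.H42 hiding cj card_cj mem_cj
open Cfsg.Agent.H83 Cfsg.Agent.H83.J4
open Cfsg.Agent.H49.JU (ca cm ca_eq ca_lt)
open Cfsg.Agent.H23.RfWcT
open Cfsg.Agent.H22.QtKit hiding t0
open scoped commutatorElement

universe u

theorem inM_gF : ∀ g ∈ gF, inM g = true := inM_of_allL (by decide +kernel)

theorem gF_le : gen gF ≤ FF := gen_le _ fun g hg =>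
  (inF_iff (inM_gF g hg)).1 (allL_iff.1 (show allL inF gF = true by decide +kernel) g hg)

theorem gF_eq : gen gF = FF :=
  eq_of_le_of_card_ge gF_le (by
    rw [card_FF, card_gen_of_orbSize inM_gF (fuel := 70) (n := 64) (by norm_num)
      (by decide +kernel)])

/-- first table of centralizing elements -/
def c1 : ℕ := 23796437296966013623654162336395017630926228572472261329140863599578123102806670624319912939933770093552034705150418411024189931309699693593790780667035994450498011327753781289138370008511380305305586134750265044183033198755453529348205989765885088408472697226749431693532190764170268004393600586365050494542033972210131156906258133447856987649182529278679763025367882817710434712654381819651138330388109144255041545842137115689929625321515677925330776197285187866615367995078212793548075543926335698786001385591632039157822368621771367261926315519624110076756352212938499051215000716428021242438409438426317324316011208200509658086647123454212204446115105388673854281593978658250895776754857174323897665000190330876866232053339608061844423607763673184177704149249303143317082467501872107942879262158593871430497824835363104695490461769237167602951424057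681601224135219848854278865686452868269557275173062889150747288837967397768996623775989800074491831358523378448102237072994135124905522361495067351096353214731029482884404141660573283478714474269945556541718531495771317914412710526740312766163788561903371183940858619138138506223266075549698941735991943781304666143307455558121314233530210445120908780105634196364293465361668966562058716496839643112868660036217710147816845429489578245349488601117794560749859698440506381779437259634059599243142170746729803532423170079852488941966202580009056349755568256740642359327264115554537098715181923426307075314203770208444475202098161115028431394206828520708810045225057501874176348470599210212617626274754611689162906909612722448015880405818080020005125686523659737999194894073542596386726890576858472917826384602109851526404779874324288418909402902597928129759718895397483896854120193089077479022291484949315710357296128197758932615436027239185262354833194939579933117505509618137704704938159039407489781808922919491038314380521504958157784963028227809964236517805125485068363716158106467104294981045947987679272952064110762601762563483604578314304669606753046450314836114125778898740427093875101017438559202680521047746090165400025845937673201139033644118595815396788132878279917971420192573761447794209358298010419297493212579499012240741252684279436907375471636052260770476141397742043091113741933456209130258102369969965435509532475161375935704272812913035296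

/-- second table of centralizing elements -/
def c2 : ℕ := 476313384560840396446066523094951187333766404445264820278383582018228143616796986943607643425572410156060693797597734864721552352510768933288369667323087261373976284292079025347017843990169577332916653220158420788676610535651817965207278596291940968388807446796334212775309832538287965310652847675512392806426391262333926592666577981331803422254853227381457786003229704378618114572888216978155874326605548617943749015759061372025516036236097636398780151436943046821938744980737077010909057051001134845769480357981381869036691333123577605768232288975162372013857287730112234466994135958704427914424355399557825671821760162941996126321265616113612487876158226746112647147483602927572495274685619870260276571653527423130905836800066849019094092752930825998343891819890536771932545608857063493415540788336829243563209557398158965052350071683495762644248740981584463543184268245094554594815851014478003772316493245536578085318996175914280881830416625654175460477352716665975164614414299577393240439786229781128969592322265522834057933282224193209747191597795052519510518927578225641550622798901703276468489728230084909071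85226330847682819402330851527788795896750770210449966238482771804550859791429662257344884852702688094354951658299306387796968400457979031232003808628774397316731703655455729283243926817835811254607974139547524903898201964053033957029177087683337010804950172755784455929626070212547243264384446393324706565950542442830445990937896302314592708335025608070341293343195755915972228127819107967344716733614460994828580316489282614329075973571865505141387991967258851848228386733459340628920685977139092380345181389340312630042679922475652343962124321978387823406219819721856444104344409819668926517726738161093492703942066101594553895648859607480653404614176570022397880431682969462497936307944032715559419287731926680073898604156377046215850922185771457950467035175653322211638393391885424755380823000646335952566274744814925723498327242513190982267342956949611395789532248225973531080036247096708011984769561965511407284594528435204682494333881447349427763087274050257948528810413807736790709300081022923253379936385239726877076155492478324982800477496931069899639511828312200463181032790287892981839487646751727545486608381768108046620969895670508495471371118153379638025689423999717352764986198048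

/-- the tables lie in the sextet group -/
theorem tab_GS {c : ℕ} (h1 : allL inM ((List.range 64).map (fld 120 c)) = true)
    (h2 : ∀ g ∈ (List.range 64).map (fld 120 c), toM g ∈ GS) {m : ℕ} (hm : m < 64) :
    inM (fld 120 c m) = true ∧ toM (fld 120 c m) ∈ GS :=
  have : fld 120 c m ∈ (List.range 64).map (fld 120 c) :=
    List.mem_map_of_mem (List.mem_range.2 hm)
  ⟨inM_of_allL h1 _ this, h2 _ this⟩

theorem c1_ok {m : ℕ} (hm : m < 64) : inM (fld 120 c1 m) = true ∧ toM (fld 120 c1 m) ∈ GS :=
  have h : allL inM ((List.range 64).map (fld 120 c1)) = true := by decide +kernel
  tab_GS h (allL_fix_fam (inM_of_allL h) (by decide +kernel)) hm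

theorem c2_ok {m : ℕ} (hm : m < 64) : inM (fld 120 c2 m) = true ∧ toM (fld 120 c2 m) ∈ GS :=
  have h : allL inM ((List.range 64).map (fld 120 c2)) = true := by decide +kernel
  tab_GS h (allL_fix_fam (inM_of_allL h) (by decide +kernel)) hm

/-- fixed modulo the sextet -/
def fx (c j : ℕ) : Bool := Bool.or (Nat.beq (mv c j) j) (Nat.beq (mv c j) (Nat.xor j 64))

theorem chk : allB (fun m => Bool.or (Nat.beq m 0) (force (fld 120 c1 m) fun a =>
    force (fld 120 c2 m) fun b => Bool.and (Bool.and (comm a (eL m)) (comm b (eL m)))
      (force (cm a) fun A => force (cm b) fun B => allB (fun j =>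
        Bool.or (Bool.or (Nat.beq j 0) (Nat.beq j 64)) (!(Bool.and (fx A j) (fx B j)))) 128)))
    64 = true := by
  decide +kernel

theorem chkW : allB (fun j => Bool.or (Nat.ble j 127) (anyB (fun i => !Nat.beq
    (Nat.mod (pc (Nat.land (rp j) (fld 24 sext0 i))) 2)
    (Nat.mod (pc (Nat.land (rp j) (fld 24 sext0 0))) 2)) 6)) 2048 = true := by
  decide +kernel

theorem inv_cases {G : Type u} [Group G] {z x : G} (hz : z * z = 1) (hx : x ∈ zpowers z) :
    x = 1 ∨ x = z := by
  obtain ⟨k, rfl⟩ := hx
  have h2 : z ^ (2 : ℤ) = 1 := by rw [zpow_two, hz]
  rcases Int.even_or_odd' k with ⟨n, rfl | rfl⟩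
  · left; simp only [zpow_mul, h2, one_zpow]
  · right; simp only [zpow_add, zpow_mul, h2, one_zpow, one_mul, zpow_one]

section

variable {G : Type u} [Group G] {V : Subgroup G} {ρ : NN V →* M24} {ψ : Finset GolayPt → G}
  (S : St V ρ) (T : Tod V ρ ψ)
include S T

/-- every element of `V` has a label -/
theorem exists_label {v : G} (hv : v ∈ V) : ∃ j < 2048, ψ (toSet (rp j)) = v := by
  obtain ⟨c, hc, e⟩ := T.sur v hv
  have e' := psi_cw S T (mask_lt c) (by rwa [toSet_mask])
  rw [toSet_mask, e] at e'
  exact ⟨_, cw_lt (mask_lt c), e'.symm⟩

/-- the label of the sextet -/
theorem z_label : ψ t0 = ψ (toSet (rp 64)) := by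
  have h := psi_cw S T (a := 8388615) (by norm_num) (by
    rw [card_toSet (by norm_num)]; decide +kernel)
  rwa [show cw 8388615 = 64 by decide +kernel] at h

end

theorem lt_of_par {j : ℕ} (hj : j < 2048) (h : ∀ t ∈ famDec 6 sext0, ∀ t' ∈ famDec 6 sext0,
    (toSet (rp j) ∩ t).card % 2 = (toSet (rp j) ∩ t').card % 2) : j < 128 := by
  have k := of_allB chkW hj
  rw [Bool.or_eq_true, ble_iff, anyB_iff] at k
  rcases k with k | ⟨i, hi, k⟩
  · omega
  · have := h _ (mem_famDec.2 ⟨i, hi, rfl⟩) _ (mem_famDec.2 ⟨0, by norm_num, rfl⟩)
    rw [card_toSet_inter _ (lab_aux hj).2.2.1, card_toSet_inter _ (lab_aux hj).2.2.1] at this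
    rw [Bool.not_eq_true', beq_false_iff] at k
    exact absurd this k

theorem qc3 (kit : KitTStmt.{u}) (va : VaTStmt.{u}) : Qc3Stmt.{u} := by
  intro G _ _ V ρ ψ ω Z Q hQ q hq
  have S := Z.st
  have T := Z.tod
  obtain ⟨kM, kW, -⟩ := kit G V ρ ψ S T
  have A : Va V (ψ t0) (WT ψ) (RT V ρ) := va G V ρ ψ ω Z
  have QR : Q ≤ RT V ρ := hQ.sup ▸ le_sup_left
  have q2V : q * q ∈ V := A.sqR q (QR hq)
  have q2W : q * q ∈ WT ψ := hQ.inf ▸ (⟨mul_mem hq hq, q2V⟩ : q * q ∈ Q ⊓ V)
  obtain ⟨j, hj, ej⟩ := exists_label S T q2V
  have j128 : j < 128 := lt_of_par hj ((kW _ (ev_rp hj)).1 (ej ▸ q2W))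
  obtain ⟨hN, hF⟩ := mem_pre.1 (QR hq)
  obtain ⟨m, hm, em⟩ := exists_eL (gF_le hF)
  have zz : ψ t0 * ψ t0 = 1 := S.el _ (A.WV A.zW)
  have key : ∀ p, inM p = true → toM p ∈ GS → comm p (eL m) = true → fx (cm p) j = true := by
    intro p hp hG hc
    obtain ⟨n, hn⟩ := S.sur (toM p)
    have nM : (n : G) ∈ MM V (ψ t0) := kM ▸ coe_mem_pre.2 (hn ▸ hG)
    have q' : n * q * (n : G)⁻¹ ∈ Q := (mem_normalizer_iff.1 (hQ.nQ nM) q).1 hq
    have wV : q⁻¹ * (n * q * (n : G)⁻¹) ∈ V := by
      refine (S.ker ((⟨q, hN⟩ : NN V)⁻¹ * (n * ⟨q, hN⟩ * n⁻¹))).1 ?_
      rw [map_mul, map_mul, map_mul, map_inv, map_inv, hn, ← em, (comm_iff hp (eL_ok hm)).1 hc]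
      group
    have wW : q⁻¹ * (n * q * (n : G)⁻¹) ∈ WT ψ :=
      hQ.inf ▸ (⟨Q.mul_mem (Q.inv_mem hq) q', wV⟩ : _ ∈ Q ⊓ V)
    have ww := S.el _ wV
    have hz := A.RW _ (inv_mem (QR hq)) _ wW
    have e : n * (q * q) * (n : G)⁻¹ = q * q * ⁅q⁻¹, q⁻¹ * (n * q * (n : G)⁻¹)⁆ := by
      rw [commutatorElement_def, inv_eq_of_mul_eq_one_right ww]
      group
    rw [← ej, conj_ca S T hp hn hj] at e
    rw [ej] at e
    unfold fx
    rw [← ca_eq, Bool.or_eq_true, beq_iff, beq_iff]
    rcases inv_cases zz hz with h | h
    · rw [h, mul_one, ← ej] at e
      exact Or.inl (chi_inj S T (ca_lt p hj) hj e)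
    · rw [h, ← ej, z_label S T, ← chi_mul S T hj (by norm_num)] at e
      exact Or.inr (chi_inj S T (ca_lt p hj) (xor_lt11 hj (by norm_num)) e)
  by_cases m0 : m = 0
  · rw [m0, eL_zero] at em
    rw [S.el q ((S.ker ⟨q, hN⟩).1 em.symm)]
    exact one_mem _
  have k := of_allB chk hm
  rw [beq_false_iff.2 m0, Bool.false_or] at k
  simp only [force_eq, Bool.and_eq_true] at k
  have k2 := of_allB k.2 j128
  rw [key _ (c1_ok hm).1 (c1_ok hm).2 k.1.1, key _ (c2_ok hm).1 (c2_ok hm).2 k.1.2] at k2
  simp only [Bool.and_self, Bool.not_true, Bool.or_false, Bool.or_eq_true, beq_iff] at k2
  rcases k2 with rfl | rfl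
  · have := chi_mul S T (i := 0) (j := 0) (by norm_num) (by norm_num)
    rw [Nat.xor_self, left_eq_mul] at this
    rw [← ej, this]
    exact one_mem _
  · rw [← ej, ← z_label S T]
    exact mem_zpowers _

end Cfsg.Agent.H22.Qc3
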