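import Cfsg.Agent.H77.SgDefs2
import Cfsg.Agent.H51.SgKit
import Cfsg.Agent.H22.SgBlock

/-! Overgroups of the norm-one torus: transitivity on independent pairs of vectors. -/

set_option autoImplicit false

namespace Cfsg.Agent.H22.SgFin

open Module Cfsg.Agent.H77.Sg Cfsg.Agent.H22.SgBlock

universe u v

variable {F : Type u} {K : Type v} [Field F] [Field K] [Algebra F K] {X : Subgroup (K ≃ₗ[F] K)}
  {x y x' y' x'' y'' : K}

variable (F) in
/-- Independent pairs. -/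
def Ind (x y : K) : Prop := x ≠ 0 ∧ y ∉ F ∙ x

variable (X) in
/-- Conjugate pairs. -/
def Cj (x y x' y' : K) : Prop := ∃ g ∈ X, g x = x' ∧ g y = y'

theorem Cj.symm (h : Cj X x y x' y') : Cj X x' y' x y := by
  obtain ⟨g, hg, rfl, rfl⟩ := h
  exact ⟨g⁻¹, inv_mem hg, g.symm_apply_apply x, g.symm_apply_apply y⟩

theorem Cj.trans (h : Cj X x y x' y') (k : Cj X x' y' x'' y'') : Cj X x y x'' y'' := by
  obtain ⟨g, hg, rfl, rfl⟩ := h
  obtain ⟨g', hg', rfl, rfl⟩ := k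
  exact ⟨g' * g, mul_mem hg' hg, rfl, rfl⟩

theorem Cj.smul (c : F) (h : Cj X x y x' y') : Cj X x (c • y) x' (c • y') := by
  obtain ⟨g, hg, rfl, rfl⟩ := h
  exact ⟨g, hg, rfl, map_smul g c y⟩

theorem Ind.map (h : Ind F x y) (k : Cj X x y x' y') : Ind F x' y' := by
  obtain ⟨g, -, rfl, rfl⟩ := k
  refine ⟨g.map_ne_zero_iff.2 h.1, fun e => h.2 ?_⟩
  obtain ⟨c, e⟩ := Submodule.mem_span_singleton.1 e
  exact Submodule.mem_span_singleton.2 ⟨c, g.injective ((map_smul g c x).trans e)⟩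

theorem Ind.ne (h : Ind F x y) : y ≠ 0 := fun e => h.2 (e ▸ zero_mem _)

theorem Ind.symm (h : Ind F x y) : Ind F y x := ⟨h.ne, fun e => by
  obtain ⟨c, rfl⟩ := Submodule.mem_span_singleton.1 e
  have c0 : c ≠ 0 := fun e => h.1 (by rw [e, zero_smul])
  exact h.2 (Submodule.mem_span_singleton.2 ⟨c⁻¹, inv_smul_smul₀ c0 y⟩)⟩

theorem Ind.smul (h : Ind F x y) {c : F} (hc : c ≠ 0) : Ind F x (c • y) :=
  ⟨h.1, fun e => h.2 ((Submodule.smul_mem_iff _ hc).1 e)⟩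

/-- Reduction of a basis of a plane by transvections. -/
theorem det (T : ∀ x y : K, Ind F x y → ∀ c : F, Cj X x y x (y + c • x)) (a b c d : F)
    (h : Ind F (a • x + b • y) (c • x + d • y)) :
    Cj X (a • x + b • y) (c • x + d • y) x ((a * d - b * c) • y) := by
  have T' : ∀ x y : K, Ind F x y → ∀ c : F, Cj X x y (x + c • y) y := fun x y h c => by
    obtain ⟨g, hg, e1, e2⟩ := T y x h.symm c
    exact ⟨g, hg, e2, e1⟩
  have key : ∀ a b c d : F, c ≠ 0 → Ind F (a • x + b • y) (c • x + d • y) →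
      Cj X (a • x + b • y) (c • x + d • y) x ((a * d - b * c) • y) := fun a b c d c0 h => by
    have h1 := T' _ _ h ((1 - a) / c)
    rw [show a • x + b • y + ((1 - a) / c) • (c • x + d • y) = x + (b + (1 - a) / c * d) • y by
      match_scalars <;> field_simp <;> ring] at h1
    have h2 := T _ _ (h.map h1) (-c)
    rw [show c • x + d • y + -c • (x + (b + (1 - a) / c * d) • y) = (a * d - b * c) • y by
      match_scalars <;> field_simp <;> ring] at h2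
    have i := (h.map h1).map h2
    have d0 : a * d - b * c ≠ 0 := fun e => i.ne (by rw [e, zero_smul])
    have h3 := T' _ _ i (-((b + (1 - a) / c * d) / (a * d - b * c)))
    rw [smul_smul, neg_mul, div_mul_cancel₀ _ d0, neg_smul, add_neg_cancel_right] at h3
    exact (h1.trans h2).trans h3
  by_cases c0 : c = 0
  swap
  · exact key a b c d c0 h
  subst c0
  have h1 := T _ _ h 1
  rw [show (0 : F) • x + d • y + (1 : F) • (a • x + b • y) = a • x + (b + d) • y by module] at h1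
  have a0 : a ≠ 0 := by
    rintro rfl
    have b0 : b ≠ 0 := fun e => h.1 (by simp [e])
    exact h.2 (Submodule.mem_span_singleton.2 ⟨d / b, by simp [smul_smul, b0]⟩)
  have h2 := key a b a (b + d) a0 (h.map h1)
  rw [show a * (b + d) - b * a = a * d - b * 0 by ring] at h2
  exact h1.trans h2

variable [Finite F] [Finite K]

theorem dvd_stable {t : ℕ} (t0 : t ≠ 0) (ht : t ∣ Nat.card K - 1) (cp : t.Coprime (Nat.card F - 1))
    (B : Set K) (h0 : ∀ z ∈ B, z ≠ 0) (h1 : ∀ z ∈ B, ∀ c : F, c ≠ 0 → c • z ∈ B)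
    (h2 : ∀ z ∈ B, ∀ s : K, s ^ t = 1 → s * z ∈ B) : (Nat.card F - 1) * t ∣ B.ncard := by
  refine cp.symm.mul_dvd_of_dvd_of_dvd
    (dvd_ncard (fun a b : K => ∃ c : F, c ≠ 0 ∧ b = c • a) B _
      (fun x _ => ⟨1, one_ne_zero, by simp⟩) ?_ ?_ ?_ fun x hx => ncard_orb (h0 x hx))
    (dvd_ncard (fun a b : K => ∃ s, s ^ t = 1 ∧ b = s * a) B _
      (fun x _ => ⟨1, one_pow _, by simp⟩) ?_ ?_ ?_ fun x hx => ?_)
  · rintro x _ ⟨c, hc, rfl⟩
    exact ⟨c⁻¹, inv_ne_zero hc, by simp [hc]⟩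
  · rintro x _ _ ⟨c, hc, rfl⟩ ⟨c', hc', rfl⟩
    exact ⟨c' * c, mul_ne_zero hc' hc, smul_smul _ _ _⟩
  · rintro x hx _ ⟨c, hc, rfl⟩
    exact h1 x hx c hc
  · rintro x _ ⟨s, hs, rfl⟩
    have s0 : s ≠ 0 := fun e => by simp [e, t0] at hs
    exact ⟨s⁻¹, by rw [inv_pow, hs, inv_one], by simp [s0]⟩
  · rintro x _ _ ⟨s, hs, rfl⟩ ⟨s', hs', rfl⟩
    exact ⟨s' * s, by rw [mul_pow, hs, hs', one_mul], (mul_assoc _ _ _).symm⟩
  · rintro x hx _ ⟨s, hs, rfl⟩
    exact h2 x hx s hs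
  · have : {y | ∃ s, s ^ t = 1 ∧ y = s * x} = (· * x) '' {w : K | w ^ t = 1} := by
      ext y
      simp [eq_comm]
    rw [this, Set.ncard_image_of_injective _ (mul_left_injective₀ (h0 x hx)), ncard_mu t0 ht]

omit [Finite K] in
theorem sq_cases {d e : F} (d0 : d ≠ 0) (e0 : e ≠ 0) (he : ¬ IsSquare e) :
    (∃ a, d = a * a) ∨ ∃ a, d = a * a * e := by
  classical
  have := Fintype.ofFinite F
  refine (em (IsSquare d)).imp_right fun hd => ?_
  obtain ⟨a, ha⟩ := (quadraticChar_one_iff_isSquare (mul_ne_zero d0 e0)).1 (by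
    rw [map_mul, quadraticChar_neg_one_iff_not_isSquare.2 hd,
      quadraticChar_neg_one_iff_not_isSquare.2 he]; norm_num)
  exact ⟨a / e, by field_simp; linear_combination ha⟩

theorem arith {p t m k b1 b2 : ℕ} (ne : b1 ≠ b2) (hk : 2 * k ≤ m * (t + 1))
    (h1 : (((b1 * p : ℕ) : ℤ) * (((t + 1 : ℕ) : ℤ) - 1) - k) ^ 2 ≤ (m : ℤ) ^ 3 * k)
    (h2 : (((b2 * p : ℕ) : ℤ) * (((t + 1 : ℕ) : ℤ) - 1) - k) ^ 2 ≤ (m : ℤ) ^ 3 * k)
    (h : 2 * m ^ 4 * (t + 1) < (p * t) ^ 2) : False := by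
  have k1 : (1 : ℤ) ≤ ((b1 : ℤ) - b2) ^ 2 := (one_le_sq_iff_one_le_abs _).2
    (Int.one_le_abs (sub_ne_zero.2 (by exact_mod_cast ne)))
  have k2 : ((2 * m ^ 4 * (t + 1) : ℕ) : ℤ) < ((p * t) ^ 2 : ℕ) := by exact_mod_cast h
  have k3 : ((2 * k : ℕ) : ℤ) ≤ (m * (t + 1) : ℕ) := by exact_mod_cast hk
  push_cast at h1 h2 k2 k3
  have k4 := mul_le_mul_of_nonneg_right k1 (sq_nonneg ((p : ℤ) * t))
  have k5 := mul_le_mul_of_nonneg_left k3 (show (0 : ℤ) ≤ (m : ℤ) ^ 3 by positivity)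
  nlinarith [sq_nonneg ((b1 : ℤ) * p * t - k + (b2 * p * t - k))]

theorem fin (agl : AglStmt.{u, v}) (lines : Lines0.{u, v}) : Fin0.{u, v} := by
  intro F K _ _ _ _ _ n q t R X ct cnt nu big x y x0 y0 hx hy hx0 hy0
  have kt := H51.SgKit.kit F K (ct.hn ▸ ct.pn)
  obtain rfl := ct.hq
  have q1 := Finite.one_lt_card (α := F)
  have t1 : 1 < t := by have := ct.big; omega
  have t0 : t ≠ 0 := by omega
  have cK : Nat.card K - 1 = R * (Nat.card F - 1) * t := by rw [ct.card]; rfl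
  have tK : t ∣ Nat.card K - 1 := cK ▸ dvd_mul_left _ _
  have cN : {z : K | z ≠ 0}.ncard = R * (Nat.card F - 1) * t := by
    rw [← cK, show {z : K | z ≠ 0} = {0}ᶜ from rfl, Set.ncard_compl, Set.ncard_singleton]
  obtain ⟨s, st, s1⟩ : ∃ s : Kˣ, s ^ t = 1 ∧ s ≠ 1 := by
    obtain ⟨w, hw, w1⟩ := Set.exists_ne_of_one_lt_ncard
      (s := {w : K | w ^ t = 1}) (by rwa [ncard_mu t0 tK]) 1
    exact ⟨Units.ofPowEqOne w t hw t0, Units.ext (by simp), fun e => w1 (congrArg Units.val e)⟩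
  have sc : ∀ (c : F), c ≠ 0 → ∀ u v : K, Cj X u v (c • u) (c • v) := fun c hc u v =>
    ⟨mulH F K (Units.mk0 (c • (1 : K)) (smul_ne_zero hc one_ne_zero)),
      (ct.mem _).2 ⟨c, 1, one_pow _, rfl⟩, by simp, by simp⟩
  have rt : ∀ w : K, w ^ t = 1 → ∀ u v : K, Cj X u v (w * u) (w * v) := fun w hw u v =>
    ⟨mulH F K (Units.ofPowEqOne w t hw t0),
      (ct.mem _).2 ⟨1, _, Units.ext (by simp), (one_smul _ _).symm⟩, rfl, rfl⟩
  set C := X.comap (mulH F K) with hC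
  have iC : C.index ∣ R := by
    obtain ⟨k, hk⟩ := dvd_stable (F := F) t0 tK ct.cop (Units.val '' (C : Set Kˣ))
      (by
        rintro _ ⟨a, -, rfl⟩
        exact a.ne_zero)
      (by
        rintro _ ⟨a, ha, rfl⟩ c hc
        exact ⟨Units.mk0 (c • (1 : K)) (smul_ne_zero hc one_ne_zero) * a,
          C.mul_mem ((ct.mem _).2 ⟨c, 1, one_pow _, rfl⟩) ha, by simp⟩)
      (by
        rintro _ ⟨a, ha, rfl⟩ w hw
        exact ⟨Units.ofPowEqOne w t hw t0 * a,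
          C.mul_mem ((ct.mem _).2 ⟨1, _, Units.ext (by simp), (one_smul _ _).symm⟩) ha, rfl⟩)
    rw [Set.ncard_image_of_injective _ Units.val_injective, ← Nat.card_coe_set_eq] at hk
    have k1 := C.card_mul_index
    rw [show Nat.card C = _ from hk, Nat.card_units, cK, mul_assoc R, mul_comm R, mul_assoc] at k1
    exact Dvd.intro_left k (Nat.eq_of_mul_eq_mul_left (Nat.mul_pos (by omega) (by omega)) k1)
  have mv : ∀ a b : Kˣ, a⁻¹ * b ∈ C → Cj X a (s * a) b (s * b) := fun a b h =>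
    have e : ((a⁻¹ * b : Kˣ) : K) * a = b := by rw [← Units.val_mul, inv_mul_cancel_comm]
    ⟨_, h, e, by rw [mulH_apply, mul_left_comm, e]⟩
  rcases ct.hR with ⟨rfl, -⟩ | ⟨rfl, dv⟩
  · obtain ⟨z, hz, h⟩ := nu x y hx hy s st s1
    obtain ⟨z', hz', h'⟩ := nu x0 y0 hx0 hy0 s st s1
    exact (Cj.trans h (mv (Units.mk0 z hz) (Units.mk0 z' hz')
      (Subgroup.index_eq_one.1 (Nat.dvd_one.1 iC) ▸ Subgroup.mem_top _))).trans (Cj.symm h')
  classical
  have := Fintype.ofFinite (Kˣ ⧸ C)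
  have T : ∀ x y : K, Ind F x y → ∀ c : F, Cj X x y x (y + c • x) := fun u v h =>
    agl F K X (Finset.univ.image fun a : Kˣ ⧸ C => ((a.out : K), (s * a.out : K)))
      (Finset.card_image_le.trans_lt (by
        rw [Finset.card_univ, ← Nat.card_eq_fintype_card]
        have k1 := Nat.le_of_dvd ct.pn.pos iC
        have k2 := Nat.le_of_dvd (by omega) dv
        change C.index < _
        omega))
      (fun u v hu hv => by
        obtain ⟨z, hz, h⟩ := nu u v hu hv s st s1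
        exact ⟨_, Finset.mem_image_of_mem _ (Finset.mem_univ (Units.mk0 z hz : Kˣ ⧸ C)),
          Cj.trans h (mv (Units.mk0 z hz) _ (QuotientGroup.eq.1 (Quotient.out_eq' _).symm))⟩)
      u v h.1 h.2
  have i0 : Ind F x0 y0 := ⟨hx0, hy0⟩
  have L : ∀ u v, Ind F u v → ∃ d : F, d ≠ 0 ∧ Cj X u v x0 (d • y0) := fun u v h => by
    obtain ⟨g, hg, k1, k2⟩ := lines F K _ _ _ X ct cnt nu u v x0 y0 h.1 h.2 hx0 hy0
    obtain ⟨a, b, e1⟩ := Submodule.mem_span_pair.1 k1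
    obtain ⟨c, d, e2⟩ := Submodule.mem_span_pair.1 k2
    have k3 : Cj X u v _ _ := ⟨g, hg, e1.symm, e2.symm⟩
    have k4 := k3.trans (det T a b c d (h.map k3))
    exact ⟨_, fun e => (h.map k4).ne (by rw [e, zero_smul]), k4⟩
  have SQ : ∀ u v, Ind F u v → ∀ a : F, a ≠ 0 → Cj X u v u ((a * a) • v) := fun u v h a a0 => by
    have k1 := sc a a0 u v
    have k2 := det T (x := u) (y := v) a 0 0 a (by simpa using h.map k1)
    exact k1.trans (by simpa using k2)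
  obtain ⟨ε, ε0, hε⟩ := L x y ⟨hx, hy⟩
  by_contra hn
  have ns : ¬ IsSquare ε := by
    rintro ⟨a, rfl⟩
    exact hn (hε.trans (SQ _ _ i0 a (left_ne_zero_of_mul ε0)).symm)
  have odd : Odd (Nat.card F) := by
    have := Fintype.ofFinite F
    rw [Nat.odd_iff, Nat.card_eq_fintype_card]
    exact FiniteField.odd_card_of_char_ne_two fun e => ns (FiniteField.isSquare_of_char_two e ε)
  have dj : ∀ u v, Cj X u v x0 y0 → Cj X u v x0 (ε • y0) → False := fun u v h k =>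
    hn ((hε.trans k.symm).trans h)
  have cov : ∀ u v, Ind F u v → Cj X u v x0 y0 ∨ Cj X u v x0 (ε • y0) := fun u v h => by
    obtain ⟨d, d0, k⟩ := L u v h
    rcases sq_cases d0 ε0 ns with ⟨a, rfl⟩ | ⟨a, rfl⟩
    · exact Or.inl (k.trans (SQ _ _ i0 a (left_ne_zero_of_mul d0)).symm)
    · rw [mul_smul] at k
      exact Or.inr (k.trans (SQ _ _ (i0.smul ε0) a
        (left_ne_zero_of_mul (left_ne_zero_of_mul d0))).symm)
  have key : ∀ y1, Ind F x0 y1 → ∃ b,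
      {z | z ≠ 0 ∧ Cj X z (s * z) x0 y1}.ncard = b * (Nat.card F - 1) * t ∧
      (((b * (Nat.card F - 1) : ℕ) : ℤ) * (t - 1) - {v | v ≠ 0 ∧ Cj X x0 v x0 y1}.ncard) ^ 2 ≤
        ((R * (Nat.card F - 1) : ℕ) : ℤ) ^ 3 * {v | v ≠ 0 ∧ Cj X x0 v x0 y1}.ncard := fun y1 i => by
    obtain ⟨b, hb⟩ := dvd_stable (F := F) t0 tK ct.cop {z | z ≠ 0 ∧ Cj X z (s * z) x0 y1}
      (fun z hz => hz.1)
      (fun z hz c hc => ⟨smul_ne_zero hc hz.1, by
        rw [mul_smul_comm]; exact (sc c hc _ _).symm.trans hz.2⟩)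
      (fun z hz w hw => ⟨mul_ne_zero (fun e => by simp [e, t0] at hw) hz.1, by
        rw [mul_left_comm]; exact (rt w hw _ _).symm.trans hz.2⟩)
    rw [mul_comm, ← mul_assoc] at hb
    refine ⟨b, hb, cnt.ineq (fun u v => Cj X u v x0 y1)
      (fun g hg u v h => (Cj.symm ⟨g, hg, rfl, rfl⟩).trans h)
      (fun u h => (i.map h.symm).2 (Submodule.mem_span_singleton_self u)) _ _
      (fun u hu => ?_) s st s1 hb⟩
    obtain ⟨g, hg, rfl⟩ := cnt.tr x0 u hx0 hu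
    rw [← Set.ncard_image_of_injective {v | v ≠ 0 ∧ Cj X x0 v x0 y1} g.injective]
    refine congrArg _ (Set.ext fun v => ?_)
    obtain ⟨v, rfl⟩ := g.surjective v
    rw [g.injective.mem_set_image]
    exact and_congr g.map_ne_zero_iff ⟨Cj.trans ⟨g, hg, rfl, rfl⟩, Cj.trans (Cj.symm ⟨g, hg, rfl, rfl⟩)⟩
  obtain ⟨b1, e1, k1⟩ := key y0 i0
  obtain ⟨b2, e2, k2⟩ := key _ (i0.smul ε0)
  have kk : {v | v ≠ 0 ∧ Cj X x0 v x0 (ε • y0)}.ncard = {v | v ≠ 0 ∧ Cj X x0 v x0 y0}.ncard := by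
    rw [← Set.ncard_image_of_injective {v | v ≠ 0 ∧ Cj X x0 v x0 y0} (smul_right_injective K ε0)]
    refine congrArg _ (Set.ext fun v => ⟨fun h => ⟨ε⁻¹ • v, ⟨smul_ne_zero (inv_ne_zero ε0) h.1, ?_⟩,
      smul_inv_smul₀ ε0 v⟩, ?_⟩)
    · simpa [ε0] using h.2.smul ε⁻¹
    · rintro ⟨v, h, rfl⟩
      exact ⟨smul_ne_zero ε0 h.1, h.2.smul ε⟩
  have hk : 2 * {v | v ≠ 0 ∧ Cj X x0 v x0 y0}.ncard ≤ R * (Nat.card F - 1) * t := by
    rw [← cN, two_mul]
    nth_rw 2 [← kk]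
    rw [← Set.ncard_union_eq (Set.disjoint_left.2 fun v h k => dj _ _ h.2 k.2)]
    exact Set.ncard_le_ncard (Set.union_subset (fun v h => h.1) fun v h => h.1)
  have hb : b1 + b2 = R := by
    refine Nat.eq_of_mul_eq_mul_right (Nat.mul_pos (show 0 < Nat.card F - 1 by omega) (show 0 < t by omega)) ?_
    rw [add_mul, ← mul_assoc, ← mul_assoc, ← mul_assoc, ← e1, ← e2, ← cN,
      ← Set.ncard_union_eq (Set.disjoint_left.2 fun v h k => dj _ _ h.2 k.2)]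
    refine congrArg _ (Set.ext fun z => ⟨fun h => h.elim (·.1) (·.1), fun hz => ?_⟩)
    refine (cov z (s * z) ⟨hz, fun e => kt.ns s t ct.cop st s1 ?_⟩).imp (⟨hz, ·⟩) (⟨hz, ·⟩)
    obtain ⟨c, e⟩ := Submodule.mem_span_singleton.1 e
    exact Submodule.mem_span_singleton.2 ⟨c, mul_right_cancel₀ hz (by rw [smul_mul_assoc, one_mul, e])⟩
  obtain ⟨t, rfl⟩ := Nat.exists_eq_succ_of_ne_zero t0
  rw [kk] at k2
  refine arith (fun e => ?_) hk k1 k2 (big odd)
  have := ct.pn.eq_two_or_odd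
  have := ct.n7
  omega

end Cfsg.Agent.H22.SgFin
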