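/-
S1758, piece T4 (part a): the spread of five blocks in a symplectic 4-space over `F₂`.
-/
import Cfsg.Agent.H71.Sy7

set_option autoImplicit false
set_option synthInstance.maxSize 100000

namespace Cfsg.Agent.H22.SyH

open Cfsg.Agent.H71.Sy

abbrev U := ZMod 2 × ZMod 2 × ZMod 2 × ZMod 2

instance : DecidableEq U := inferInstance
instance : Fintype U := inferInstance

def e1 : U := (1, 0, 0, 0)
def e2 : U := (0, 1, 0, 0)
def e3 : U := (0, 0, 1, 0)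
def e4 : U := (0, 0, 0, 1)

/-- the form -/
def Bf (u v : U) : ZMod 2 := u.1 * v.2.2.1 + u.2.1 * v.2.2.2 + u.2.2.1 * v.1 + u.2.2.2 * v.2.1

/-- the block of a vector -/
def β (u : U) : Fin 5 :=
  if u.2.2.1 = 0 ∧ u.2.2.2 = 0 then 0 else if u.1 = 0 ∧ u.2.1 = 0 then 1 else
    if u.2.2.1 = u.1 ∧ u.2.2.2 = u.2.1 then 2 else
      if u.2.2.1 = u.2.1 ∧ u.2.2.2 = u.1 + u.2.1 then 3 else 4

def tU (p q u : U) : U := u + Bf u p • p + Bf u q • q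

def PP (a : Fin 5) : U := ![e1, e3, tU e3 e4 e1, tU e3 (e3 + e4) e1, tU e4 (e4 + e3) e1] a
def QQ (a : Fin 5) : U := ![e2, e4, tU e3 e4 e2, tU e3 (e3 + e4) e2, tU e4 (e4 + e3) e2] a

def lin (a b c d u : U) : U := u.1 • a + u.2.1 • b + u.2.2.1 • c + u.2.2.2 • d

def Iso (R : U → U) : Prop := ∀ u v, Bf (R u) (R v) = Bf u v
def Blk (R : U → U) : Prop := ∀ u, u ≠ 0 → ∀ v, v ≠ 0 → β u = β v → β (R u) = β (R v)

instance (R : U → U) : Decidable (Iso R) := by unfold Iso; infer_instance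
instance (R : U → U) : Decidable (Blk R) := by unfold Blk; infer_instance

theorem lin_e : ∀ u, lin e1 e2 e3 e4 u = u := by decide +kernel

theorem Bf_nondeg : ∀ u, (∀ v, Bf u v = 0) → u = 0 := by decide +kernel

theorem β_PP : ∀ a, β (PP a) = a ∧ PP a ≠ 0 := by decide +kernel

theorem D1 : ∀ u, Bf u (PP (β u)) = 0 ∧ Bf u (QQ (β u)) = 0 := by decide +kernel

theorem D2 : ∀ u, u ≠ 0 → ∀ v, v ≠ 0 → u ≠ v → β u = β v →
    (u = PP (β u) ∧ v = QQ (β u)) ∨ (u = QQ (β u) ∧ v = PP (β u)) ∨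
    (u = PP (β u) ∧ v = PP (β u) + QQ (β u)) ∨ (u = PP (β u) + QQ (β u) ∧ v = PP (β u)) ∨
    (u = QQ (β u) ∧ v = QQ (β u) + PP (β u)) ∨ (u = QQ (β u) + PP (β u) ∧ v = QQ (β u)) := by
  decide +kernel

theorem D3 : ∀ c : U, c ≠ 0 → ∃ u, u ≠ 0 ∧ ∃ v, v ≠ 0 ∧ u ≠ v ∧ β u = β v ∧ u + v = c := by
  decide +kernel

theorem D4 : ∀ a, β a = 0 → ∀ b, β b = 0 → ∀ c, β c = 1 → ∀ d, β d = 1 → Iso (lin a b c d) →
    (∀ u, u ≠ 0 → β (lin a b c d u) = β u) → ∀ u, lin a b c d u = u := by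
  decide +kernel

theorem D5 : ∀ c d, Iso (lin e1 e2 c d) → Blk (lin e1 e2 c d) → (∀ u, lin e1 e2 c d u = u) ∨
    (∀ u, lin e1 e2 c d u = tU e1 e2 u) ∨ (∀ u, lin e1 e2 c d u = tU e2 (e2 + e1) u) ∨
    ∀ u, lin e1 e2 c d u = tU e1 e2 (tU e2 (e2 + e1) u) := by
  decide +kernel

theorem D6 : ∀ c d, Iso (lin e2 e1 c d) → Blk (lin e2 e1 c d) →
    (∀ a, β (lin e2 e1 c d (PP a)) = Equiv.swap 3 4 a) ∨
    (∀ a, β (tU e1 e2 (lin e2 e1 c d (PP a))) = Equiv.swap 3 4 a) ∨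
    (∀ a, β (tU e2 (e2 + e1) (lin e2 e1 c d (PP a))) = Equiv.swap 3 4 a) ∨
    ∀ a, β (tU e1 (e1 + e2) (lin e2 e1 c d (PP a))) = Equiv.swap 3 4 a := by
  decide +kernel

theorem D8 : ∀ u, β u = 0 ↔ u = 0 ∨ u = e1 ∨ u = e2 ∨ u = e1 + e2 := by decide +kernel

theorem D9 : ∀ u, Bf u e1 = 0 → Bf u e2 = 0 → β u = 0 := by decide +kernel

def c5 : Equiv.Perm (Fin 5) := ⟨![4, 2, 3, 0, 1], ![3, 4, 1, 2, 0], by decide, by decide⟩

theorem D7 : (∀ a, β (tU e1 e2 (tU e3 (e3 + e4) (PP a))) = c5 a) ∧ c5 ^ 5 = 1 ∧ c5 ≠ 1 := by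
  decide +kernel

end Cfsg.Agent.H22.SyH
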