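/-
S1758, piece T4 (part b): coordinates for the geometry of pairs.
-/
import Cfsg.Agent.H22.SyHa

set_option autoImplicit false

namespace Cfsg.Agent.H22.SyH

open Cfsg.Agent.H71.Sy

variable {V : Type*} [AddCommGroup V] [Module (ZMod 2) V]
  {b : LinearMap.BilinForm (ZMod 2) V} {Pr : V → V → Prop} {p q r s : V}

/-- the extra axioms of type `HS` -/
structure Geo2 (b : LinearMap.BilinForm (ZMod 2) V) (Pr : V → V → Prop) : Prop extends
    Geo b Pr where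
  tri : ∀ {p q}, Pr p q → Pr p (p + q)
  np : ∀ {p q r s}, Pr p q → Pr r s → Perp b p q r s → r + s = p ∨ r + s = q ∨ r + s = p + q

/-- coordinates -/
def κ (p q r s : V) : U →ₗ[ZMod 2] V where
  toFun u := u.1 • p + u.2.1 • q + u.2.2.1 • r + u.2.2.2 • s
  map_add' u v := by simp only [Prod.fst_add, Prod.snd_add, add_smul]; abel
  map_smul' c u := by
    simp only [Prod.smul_fst, Prod.smul_snd, smul_eq_mul, mul_smul, smul_add, RingHom.id_apply]

theorem κ_apply (u : U) : κ p q r s u = u.1 • p + u.2.1 • q + u.2.2.1 • r + u.2.2.2 • s := rfl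

theorem κ_e1 : κ p q r s e1 = p := by simp [κ_apply, e1]
theorem κ_e2 : κ p q r s e2 = q := by simp [κ_apply, e2]
theorem κ_e3 : κ p q r s e3 = r := by simp [κ_apply, e3]
theorem κ_e4 : κ p q r s e4 = s := by simp [κ_apply, e4]

/-- a symplectic basis formed by two pairs -/
structure Bas (b : LinearMap.BilinForm (ZMod 2) V) (Pr : V → V → Prop) (p q r s : V) : Prop where
  g : Geo2 b Pr
  pq : Pr p q
  rs : Pr r s
  pr : b p r = 1
  ps : b p s = 0
  qr : b q r = 0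
  qs : b q s = 1

theorem Geo2.exists_bas (g : Geo2 b Pr) (h : Pr p q) (h' : Pr r s) (hn : ¬ Perp b p q r s) :
    ∃ r s, Bas b Pr p q r s := by
  have n1 : ¬ (b p r = b p s ∧ b q r = b q s) := fun e => hn (g.fix h h'
    (by rw [g.bs, map_add, e.1, add_self2]) (by rw [g.bs, map_add, e.2, add_self2]))
  have n2 : ¬ (b p r = 0 ∧ b q r = 0) := fun e => hn (by
    have := g.fix h (g.tri (g.symm h')) (by rw [add_self2', g.bs, e.1])
      (by rw [add_self2', g.bs, e.2])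
    exact ⟨e.1, this.1, e.2, this.2.2.1⟩)
  have n3 : ¬ (b p s = 0 ∧ b q s = 0) := fun e => hn (by
    have := g.fix h (g.tri h') (by rw [add_self2', g.bs, e.1]) (by rw [add_self2', g.bs, e.2])
    exact ⟨this.1, e.1, this.2.2.1, e.2⟩)
  rcases z01 (b p r) with a1 | a1 <;> rcases z01 (b p s) with a2 | a2 <;>
    rcases z01 (b q r) with a3 | a3 <;> rcases z01 (b q s) with a4 | a4 <;>
    simp only [a1, a2, a3, a4, and_self, not_true_eq_false] at n1 n2 n3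
  · exact ⟨s, r, g, h, g.symm h', a2, a1, a4, a3⟩
  · exact ⟨r + s, r, g, h, g.symm (g.tri h'), by simp [a1, a2], a1, by simp [a3, a4, oo], a3⟩
  · exact ⟨r, s, g, h, h', a1, a2, a3, a4⟩
  · exact ⟨s + r, s, g, h, g.symm (g.tri (g.symm h')), by simp [a1, a2], a2, by simp [a3, a4, oo],
      a4⟩
  · exact ⟨r, r + s, g, h, g.tri h', a1, by simp [a1, a2, oo], a3, by simp [a3, a4]⟩
  · exact ⟨s, s + r, g, h, g.tri (g.symm h'), a2, by simp [a1, a2, oo], a4, by simp [a3, a4]⟩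

namespace Bas

variable (B : Bas b Pr p q r s)
include B

theorem b_κ (u v : U) : b (κ p q r s u) (κ p q r s v) = Bf u v := by
  have a1 := B.g.orth B.pq
  have a2 := B.g.orth B.rs
  simp only [κ_apply, Bf, map_add, map_smul, LinearMap.add_apply, LinearMap.smul_apply,
    smul_eq_mul, B.g.alt, B.g.bs q p, B.g.bs r p, B.g.bs s p, B.g.bs r q, B.g.bs s q, B.g.bs s r,
    a1, a2, B.pr, B.ps, B.qr, B.qs]
  ring

theorem b_κ' (x : V) (v : U) : b x (κ p q r s v) = Bf (b x r, b x s, b x p, b x q) v := by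
  simp only [κ_apply, Bf, map_add, map_smul, smul_eq_mul]
  ring

theorem κ_inj : Function.Injective (κ p q r s) := by
  refine (injective_iff_map_eq_zero _).2 fun u hu => Bf_nondeg u fun v => ?_
  rw [← B.b_κ, hu, LinearMap.map_zero₂]

theorem κ_tU (a c u : U) :
    κ p q r s (tU a c u) = tau b (κ p q r s a) (κ p q r s c) (κ p q r s u) := by
  simp only [tU, tau, map_add, map_smul, B.b_κ]

theorem pr_PQ (a : Fin 5) : Pr (κ p q r s (PP a)) (κ p q r s (QQ a)) := by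
  have h : Pr (κ p q r s e1) (κ p q r s e2) := by rw [κ_e1, κ_e2]; exact B.pq
  have h' : Pr (κ p q r s e3) (κ p q r s e4) := by rw [κ_e3, κ_e4]; exact B.rs
  fin_cases a
  · exact h
  · exact h'
  · change Pr (κ p q r s (tU _ _ _)) (κ p q r s (tU _ _ _))
    rw [B.κ_tU, B.κ_tU]; exact B.g.cl h' h
  · change Pr (κ p q r s (tU _ _ _)) (κ p q r s (tU _ _ _))
    rw [B.κ_tU, B.κ_tU, map_add]; exact B.g.cl (B.g.tri h') h
  · change Pr (κ p q r s (tU _ _ _)) (κ p q r s (tU _ _ _))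
    rw [B.κ_tU, B.κ_tU, map_add]; exact B.g.cl (B.g.tri (B.g.symm h')) h

theorem pr_of {u v : U} (hu : u ≠ 0) (hv : v ≠ 0) (h : u ≠ v) (e : β u = β v) :
    Pr (κ p q r s u) (κ p q r s v) := by
  have a := B.pr_PQ (β u)
  rcases D2 u hu v hv h e with ⟨c, d⟩ | ⟨c, d⟩ | ⟨c, d⟩ | ⟨c, d⟩ | ⟨c, d⟩ | ⟨c, d⟩ <;>
    rw [d] <;> nth_rewrite 1 [c] <;> try rw [map_add]
  exacts [a, B.g.symm a, B.g.tri a, B.g.symm (B.g.tri a), B.g.tri (B.g.symm a),
    B.g.symm (B.g.tri (B.g.symm a))]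

theorem β_eq {u v : U} (h : Pr (κ p q r s u) (κ p q r s v)) : β u = β v := by
  have h1 : u + v ≠ 0 := fun e => B.g.ne h (by rw [add_eq_zero2.1 e])
  obtain ⟨c, hc, d, hd, h2, h3, h4⟩ := D3 _ h1
  rcases B.g.uniq (B.pr_of hc hd h2 h3) h (by rw [← map_add, ← map_add, h4]) with ⟨a1, a2⟩ | ⟨a1, a2⟩
  · rw [B.κ_inj a1, B.κ_inj a2, h3]
  · rw [B.κ_inj a1, B.κ_inj a2, h3]

theorem mem_range {c d : V} (h : Pr c d) : c ∈ LinearMap.range (κ p q r s) := by
  have h' := B.g.tri (B.g.symm h)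
  have e : d + (d + c) = c := add_self2' d c
  obtain ⟨a1, a2⟩ := D1 (b c r, b c s, b c p, b c q)
  have := B.g.np (B.pr_PQ _) h' (B.g.fix (B.pr_PQ _) h' (by rw [e, B.b_κ', a1])
    (by rw [e, B.b_κ', a2]))
  rw [e] at this
  rcases this with e | e | e
  · exact ⟨_, e.symm⟩
  · exact ⟨_, e.symm⟩
  · exact ⟨_, by rw [map_add, e]⟩

theorem κ_surj (hn : ∀ v, (∀ u, b v u = 0) → v = 0)
    (hi : ∀ u v, b u p = 0 → b u q = 0 → b v p = 0 → b v q = 0 → b u v = 0) :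
    Function.Surjective (κ p q r s) := by
  have key : ∀ x w, b (x + κ p q r s (b x r, b x s, b x p, b x q)) (κ p q r s w) = 0 := by
    intro x w
    rw [map_add, LinearMap.add_apply, B.b_κ, B.b_κ', add_self2]
  intro x
  refine ⟨(b x r, b x s, b x p, b x q), (add_eq_zero2.1 (hn _ fun y => ?_)).symm⟩
  have k1 := fun x => key x e1
  have k2 := fun x => key x e2
  simp only [κ_e1, κ_e2] at k1 k2
  have := hi _ _ (k1 x) (k2 x) (k1 y) (k2 y)
  rwa [map_add, key, add_zero] at this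

end Bas

section Grp

open Subgroup

universe u

variable {G : Type u} [Group G] [Finite G] {i j k z t m : G}

theorem f_comm (l : Ln i j k z t) :
    i * j * k * i = i * (i * j * k) ∧ i * j * k * j = j * (i * j * k) ∧
      i * j * k * k = k * (i * j * k) := by
  refine ⟨?_, ?_, ?_⟩ <;> simp only [mul_assoc, l.nf]

theorem root_comm (l : Ln i j k z t) (rm : Rs m (i * j * k)) :
    m * i = i * m ∧ m * j = j * m ∧ m * k = k * m :=
  ⟨l.ri.comm_root rm (f_comm l).1, l.rj.comm_root rm (f_comm l).2.1,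
    l.rk.comm_root rm (f_comm l).2.2⟩

theorem exists_tv (l : Ln i j k z t) (h1 : ¬ InL z t (i * j * k)) (h2 : IsConj z (i * j * k)) :
    ∃ y, y * z = z * y ∧ y * (i * j * k) * y⁻¹ = i * j * k ∧ y * t * y⁻¹ = t * (i * j * k) := by
  obtain ⟨m, rm⟩ := l.ri.of_isConj h2
  obtain ⟨a1, a2, -⟩ := root_comm l rm
  obtain ⟨y, hy, e1, e2⟩ := rm.sep1 (rm.t_mem l.ri a1.symm) (rm.t_mem l.rj a2.symm) l.ri.zz l.rj.zz
    l.rj.ne (fun e => h1 (by simp [InL, ← e])) l.ne fun e => h1 (by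
      refine Or.inr (Or.inr (Or.inr ?_))
      rw [e, ← mul_assoc z z, l.ri.zz, one_mul])
  exact ⟨y, e1, mul_inv_eq_iff_eq_mul.2 (OC_comm hy), e2⟩

variable {V : Type u} [AddCommGroup V] [Module (ZMod 2) V]

theorem geo2 (M : Mdl i z V) (l : Ln i j k z t) (h1 : ¬ InL z t (i * j * k))
    (h2 : IsConj z (i * j * k)) : Geo2 M.b M.Pr where
  toGeo := M.geo
  tri := by
    rintro _ _ ⟨j', k', t', l', rfl, rfl⟩
    obtain ⟨y, e1, e2, e3⟩ := exists_tv l' (fun h => h1 (l'.tyT l (IsConj.refl z) h))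
      (l.tyH l' (IsConj.refl z) h1 h2)
    have a1 : M.ρ y (M.π (j' * k')) = M.π (j' * k') := by
      rw [← M.π_f l', M.ρ_π e1 l'.fW, e2]
    have a2 : M.ρ y (M.π (j' * k'⁻¹)) = M.π (j' * k') + M.π (j' * k'⁻¹) := by
      have := M.ρ_π e1 l'.tW
      rw [e3, M.π_mul l'.tW l'.fW, M.π_f l', ← M.pq l', map_add, a1, add_assoc,
        add_right_inj, add_comm] at this
      exact this
    have := (M.pr l').cj e1
    rwa [a1, a2] at this
  np := by
    rintro _ _ _ _ ⟨j1, k1, t1, l1, rfl, rfl⟩ ⟨j', k', t', l', rfl, rfl⟩ hp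
    have n1 : ¬ InL z t1 (i * j1 * k1) := fun h => h1 (l1.tyT l (IsConj.refl z) h)
    obtain ⟨m, rm⟩ := l1.ri.of_isConj (l.tyH l1 (IsConj.refl z) h1 h2)
    have c1 := (M.perp_iff l1 l').1 hp
    have c2 := (l1.comm_all l' c1).2.1
    have hf : i * j1 * k1 ∈ OC t' := l'.rj.t_mem rm (l'.rj.comm_root rm
      (Commute.mul_left (Commute.mul_left l'.ij.symm c1.symm) c2.symm).eq)
    have πL : ∀ e, InL z t1 e → e ∈ OC z ∧ (M.π e = 0 ∨ M.π e = M.π t1) := by
      rintro e (rfl | rfl | rfl | rfl)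
      · exact ⟨one_mem _, Or.inl M.π_one⟩
      · exact ⟨l.ri.zmem, Or.inl (M.π_z l.ri)⟩
      · exact ⟨l1.tW, Or.inr rfl⟩
      · exact ⟨mul_mem l.ri.zmem l1.tW, Or.inr (by
          rw [M.π_mul l.ri.zmem l1.tW, M.π_z l.ri, zero_add])⟩
    rw [M.pq l']
    by_cases hn : ∃ e, InL z t1 e ∧ i * j1 * k1 = e * t'
    · obtain ⟨e, he, h⟩ := hn
      have := M.π_f l1
      rw [h, M.π_mul (πL e he).1 l'.tW] at this
      rcases (πL e he).2 with a | a <;> rw [a] at this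
      · exact Or.inl (by rw [← this, zero_add])
      · rw [← M.pq l1, add_assoc, add_eq_left] at this
        exact Or.inr (Or.inl (add_eq_zero2.1 this).symm)
    · obtain ⟨y, -, e1, e2, e3⟩ := l'.rj.sep2 l'.zW (l'.rj.t_mem l1.rj c1.symm) hf l.ri.zz
        l1.rj.zz l1.tz.symm l1.ff fun e he => ⟨fun h => n1 (h ▸ he), fun h => hn ⟨e, he, h⟩⟩
      obtain ⟨e, he, e4⟩ := l1.conj_f_mod e2 e1
      obtain rfl : t' = e := mul_left_cancel (e3.symm.trans e4)
      exact Or.inr (Or.inr (((πL _ he).2.resolve_left (M.π_t_ne l')).trans (M.pq l1).symm))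

/-- The action of `C(z)` on `O₂(C(z)) / ⟨i⟩` in coordinates. -/
structure Co (i j k z t : G) where
  π : G → U
  ρ : G → U →ₗ[ZMod 2] U
  π_mul : ∀ {x y}, x ∈ OC z → y ∈ OC z → π (x * y) = π x + π y
  π_zero : ∀ {x}, x ∈ OC z → (π x = 0 ↔ x ∈ zpowers i)
  π_surj : ∀ v, ∃ x ∈ OC z, π x = v
  b_eq : ∀ {x y}, x ∈ OC z → y ∈ OC z → (Bf (π x) (π y) = 0 ↔ x * y = y * x)
  ρ_π : ∀ {h x}, h * z = z * h → x ∈ OC z → ρ h (π x) = π (h * x * h⁻¹)
  iso : ∀ {h}, h * z = z * h → Iso (ρ h)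
  blk : ∀ {h}, h * z = z * h → Blk (ρ h)
  ρ_mul : ∀ {h g}, h * z = z * h → g * z = z * g → ∀ v, ρ (h * g) v = ρ h (ρ g v)
  ρ_eq : ∀ {h}, h * z = z * h → ((∀ v, ρ h v = v) ↔ h ∈ OC z)
  tau : ∀ {u v}, u ≠ 0 → v ≠ 0 → u ≠ v → β u = β v → ∃ g, g * z = z * g ∧ ∀ w, ρ g w = tU u v w
  π_f : π (i * j * k) = e1
  π_t : π t = e1 + e2
  ρ_j : ∀ w, ρ j w = tU e1 e2 w
  ρ_m : ∀ {m}, Rs m (i * j * k) → ∀ w, ρ m w = tU e2 (e2 + e1) w
  swap : ∃ y, y * z = z * y ∧ ρ y e1 = e2 ∧ ρ y e2 = e1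

theorem exists_co (l : Ln i j k z t) (h1 : ¬ InL z t (i * j * k))
    (h2 : IsConj z (i * j * k)) : Nonempty (Co i j k z t) := by
  obtain ⟨V, _, _, _, ⟨M⟩⟩ := l.ri.exists_mdl
  have g := geo2 M l h1 h2
  obtain ⟨r, s, hrs, hn⟩ := M.exists_not_perp (M.pr l)
  obtain ⟨r, s, B⟩ := g.exists_bas (M.pr l) hrs hn
  have hs := B.κ_surj (fun v hv => M.nondeg l.ri hv) fun u v a1 a2 a3 a4 =>
    M.iso_of_span l (LinearMap.range (κ (M.π (j * k)) (M.π (j * k⁻¹)) r s)) (fun h hh => by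
      rintro _ ⟨u, rfl⟩
      rw [κ_apply]
      simp only [map_add, map_smul]
      exact add_mem (add_mem (add_mem (Submodule.smul_mem _ _ (B.mem_range (B.pq.cj hh)))
        (Submodule.smul_mem _ _ (B.mem_range ((g.symm B.pq).cj hh))))
        (Submodule.smul_mem _ _ (B.mem_range (B.rs.cj hh))))
        (Submodule.smul_mem _ _ (B.mem_range ((g.symm B.rs).cj hh)))) (by
      rintro _ ⟨u, rfl⟩ c1 c2
      have d1 := B.b_κ u e1
      have d2 := B.b_κ u e2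
      rw [κ_e1, c1] at d1
      rw [κ_e2, c2] at d2
      rcases (D8 u).1 (D9 u d1.symm d2.symm) with e | e | e | e <;> rw [e] <;>
        simp [κ_e1, κ_e2]) ⟨r, B.mem_range B.rs, by
      rw [← M.pq l, map_add, g.bs r, g.bs r, B.pr, B.qr, add_zero]⟩ a1 a2 a3 a4
  let e := LinearEquiv.ofBijective _ ⟨B.κ_inj, hs⟩
  have he : ∀ u, e u = κ (M.π (j * k)) (M.π (j * k⁻¹)) r s u := fun _ => rfl
  have hb : ∀ x y, Bf (e.symm x) (e.symm y) = M.b x y := fun x y => by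
    rw [← B.b_κ, ← he, ← he, e.apply_symm_apply, e.apply_symm_apply]
  have ht : ∀ {g a c}, (∀ w, M.ρ g w = tau M.b (e a) (e c) w) →
      ∀ w, e.symm (M.ρ g (e w)) = tU a c w := fun h w => by
    rw [h, e.symm_apply_eq, he, he, he, he, B.κ_tU]
  have p1 : e e1 = M.π (j * k) := κ_e1
  have p2 : e e2 = M.π (j * k⁻¹) := κ_e2
  refine ⟨⟨fun x => e.symm (M.π x), fun h => e.symm.toLinearMap ∘ₗ M.ρ h ∘ₗ e.toLinearMap,
    fun hx hy => by rw [M.π_mul hx hy, map_add], fun hx => by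
      rw [← M.π_zero hx, map_eq_zero_iff _ e.symm.injective], fun v => ?_, fun hx hy => by
      rw [hb, M.b_eq hx hy], fun hh hx => by simp [M.ρ_π hh hx], fun hh u v => ?_,
    fun {h} hh u hu v hv huv => ?_, fun hh hg v => by simp [M.ρ_mul hh hg], fun hh => ⟨fun a =>
      M.mem_of_ρ l.ri hh fun v => by simpa using congrArg e (a (e.symm v)), fun a v => by
      simp [M.ρ_of_mem l.ri a]⟩, fun hu hv h1 h2 => ?_, by
      rw [M.π_f l, ← p1, e.symm_apply_apply], by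
      rw [← M.pq l, ← p1, ← p2, ← map_add, e.symm_apply_apply],
    ht (by rw [p1, p2]; exact M.ρ_tau l), fun {m} rm => ht fun w => ?_, ?_⟩⟩
  · obtain ⟨x, hx, a⟩ := M.π_surj (e v)
    exact ⟨x, hx, by rw [a, e.symm_apply_apply]⟩
  · change Bf (e.symm _) (e.symm _) = _
    rw [hb, ← B.b_κ]
    exact M.iso hh _ _
  · by_cases a : u = v
    · rw [a]
    refine B.β_eq ?_
    rw [← he, ← he]
    simpa [← he] using (B.pr_of hu hv a huv).cj hh
  · obtain ⟨j', k', t', l', a1, a2⟩ := B.pr_of hu hv h1 h2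
    exact ⟨j', l'.jz, ht (by rw [he, he, a1, a2]; exact M.ρ_tau l')⟩
  · obtain ⟨n, l'⟩ := l.ri.exists_ln rm h2 (fun e => h1 (by simp [InL, e])) (root_comm l rm).1
    rw [M.ρ_tau l', map_add, p1, p2]
    rcases g.uniq (g.tri (g.symm B.pq)) (M.pr l') (by rw [M.pq l', M.π_f l, add_self2'])
      with ⟨a1, a2⟩ | ⟨a1, a2⟩ <;> rw [a1, a2]
    exact tau_comm _ _ _
  · obtain ⟨y, hy, a1, -, a2⟩ := l.swap h1
    obtain ⟨b1, b2, -⟩ := M.ρ_swap l hy a1 a2
    refine ⟨y, a1, ?_, ?_⟩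
    · change e.symm (M.ρ y (e e1)) = _
      rw [p1, b1, ← p2, e.symm_apply_apply]
    · change e.symm (M.ρ y (e e2)) = _
      rw [p2, b2, ← p1, e.symm_apply_apply]

end Grp

end Cfsg.Agent.H22.SyH
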