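import Cfsg.Agent.H74.UVDefs

/-! No component of the Weil character splits when its torus function is translation invariant. -/

set_option autoImplicit false

namespace Cfsg.Agent.H22.UvNob

open Cfsg Module Cfsg.Agent.H31 Cfsg.Agent.H77.Sg Cfsg.Agent.H74.UV

universe u

theorem mem_rt {K : Type u} [Field K] {m : ℕ} {s : Kˣ} : s ∈ Rt K m ↔ s ^ m = 1 := by
  simp [MonoidHom.mem_ker]

theorem split {A : Type*} [CommGroup A] {m n : ℕ} (h : m.Coprime n) {x : A}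
    (hx : x ^ (m * n) = 1) : ∃ a b : A, a ^ m = 1 ∧ b ^ n = 1 ∧ x = a * b := by
  have e := Nat.gcd_eq_gcd_ab m n
  rw [h] at e
  have hx' : x ^ ((m : ℤ) * n) = 1 := by rw [← Nat.cast_mul, zpow_natCast, hx]
  refine ⟨x ^ ((n : ℤ) * Nat.gcdB m n), x ^ ((m : ℤ) * Nat.gcdA m n), ?_, ?_, ?_⟩
  · rw [← zpow_natCast, ← zpow_mul, show (n : ℤ) * Nat.gcdB m n * m = m * n * Nat.gcdB m n by ring,
      zpow_mul, hx', one_zpow]
  · rw [← zpow_natCast, ← zpow_mul, show (m : ℤ) * Nat.gcdA m n * n = m * n * Nat.gcdA m n by ring,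
      zpow_mul, hx', one_zpow]
  · rw [← zpow_add, add_comm, ← e]; simp

theorem nob (hT : TenStmt.{u}) (hF : FreeStmt.{u}) : NobStmt.{u} := by
  intro E K _ _ _ _ _ σ B q R t G ψ I h cu fn ti
  have kt := cu.toKt
  refine Finset.eq_empty_of_forall_notMem fun ν hν => ?_
  have n1 : ¬ ∀ z, ν z = 1 := fun e => fn.one ((MonoidHom.ext e : ν = 1) ▸ hν)
  have vC : ∀ (z : Rt K (q + 1)), ∀ p ∈ Rt K t, h ν (z * p) = ν z := by
    intro z p hp
    rw [fn.hz ν hν z p (kt.PT hp)]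
    have := fn.hp ν hν p hp 1 (one_mem _)
    rw [mul_one] at this
    rw [this, fn.h1 ν hν, mul_one]
  have nz : ∀ z ∈ Rt K (q + 1), ∀ p ∈ Rt K t, p ≠ 1 → z * p ∉ Rt K (q + 1) := by
    intro z hz p hp h1 hh
    exact h1 (kt.ZP p (by simpa using mul_mem (inv_mem hz) hh) hp)
  by_cases ha : ∀ ζ : Rt K (q + 1), (ζ : Kˣ) ^ R = 1 → ν ζ = 1
  · rcases kt.q2.eq_or_lt with h2 | h3
    · obtain ⟨p, f, hp, -, hc, hf, e⟩ := kt.pp
      obtain rfl : p = 2 := (Nat.prime_dvd_prime_iff_eq hp Nat.prime_two).1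
        (by rw [h2, e]; exact dvd_pow_self p hf.ne')
      have : Nontrivial (Rt K t) := Finite.one_lt_card_iff_nontrivial.1 (by
        have := kt.t43
        rw [kt.cardP]; omega)
      obtain ⟨p0, hp0⟩ := exists_ne (1 : Rt K t)
      have hp1 : (p0 : Kˣ) ≠ 1 := fun e => hp0 (Subtype.ext e)
      refine n1 fun z => ?_
      have hs := mul_mem (kt.ZT z.2) (kt.PT p0.2)
      have hn := nz z z.2 p0 p0.2 hp1
      have e1 := ti ν hν _ hs _ (inv_mem hs) hn (fun e => hn (inv_mem_iff.1 e)) 1 (by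
        have h0 : ((z * p0 : Kˣ) : K) - 1 ≠ 0 := fun e =>
          hn ((Units.ext (sub_eq_zero.1 e) : (z * p0 : Kˣ) = 1) ▸ one_mem _)
        have h1 : 1 - ((z * p0 : Kˣ) : K) ≠ 0 := fun e => h0 (by linear_combination -e)
        have h2 : (2 : K) = 0 := by exact_mod_cast CharP.cast_eq_zero K 2
        have h3 := (z * p0 : Kˣ).ne_zero
        rw [kap, kap, Units.val_inv_eq_inv_val, map_one]
        generalize ((z * p0 : Kˣ) : K) = x at h0 h1 h3
        have h4 : x⁻¹ - 1 ≠ 0 := fun e => h1 (by field_simp at e; simpa using e)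
        field_simp
        linear_combination (x ^ 2 - x) * h2)
      rw [mul_inv, vC z p0 p0.2, ← Subgroup.coe_inv, vC z⁻¹ _ (inv_mem p0.2), map_inv] at e1
      have e2 : ν z ^ 2 = 1 := by rw [sq]; exact mul_eq_one_iff_eq_inv.2 (Units.ext e1).symm
      have e3 : ν z ^ 3 = 1 := by
        rw [← map_pow, show z ^ 3 = 1 from Subtype.ext (by
          exact (congrArg ((z : Kˣ) ^ ·) (show 3 = q + 1 by omega)).trans (mem_rt.1 z.2)), map_one]
      rw [pow_succ, e2, one_mul] at e3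
      exact e3
    · have hc : R.Coprime t ∧ R ∣ q + 1 := by
        rcases kt.hR with h | h
        · simp [h.1]
        · exact h.1 ▸ ⟨kt.cop7.symm, h.2⟩
      have := hT E K σ B q R t kt h3 (fun s => h ν s = 1) (fun s hs s' hs' e h1 => by
        obtain ⟨a, b, h2, h3, h4⟩ := split hc.1 (x := s' * s⁻¹) (by
          rw [mul_pow, inv_pow, e, mul_inv_cancel])
        have haZ : a ∈ Rt K (q + 1) := by
          obtain ⟨c, hc⟩ := hc.2
          rw [mem_rt, hc, pow_mul, h2, one_pow]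
        have hb := mem_rt.2 h3
        rw [eq_mul_of_mul_inv_eq h4, mul_assoc, fn.hz ν hν ⟨a, haZ⟩ _ (mul_mem (kt.PT hb) hs),
          fn.hp ν hν b hb s hs, ha ⟨a, haZ⟩ h2, h1]
        simp) (fun s hs s' hs' h1 h2 c e h3 => (ti ν hν s hs s' hs' h1 h2 c e).trans h3)
        1 (one_mem _)
      refine n1 fun z => Units.ext ?_
      have e := vC z 1 (one_mem _)
      rw [mul_one] at e
      exact e.symm.trans (this z (kt.ZT z.2) (fn.h1 ν hν))
  push Not at ha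
  obtain ⟨ζ0, h01, h02⟩ := ha
  obtain ⟨rfl, h7⟩ : R = 11 ∧ 11 ∣ q + 1 := kt.hR.resolve_left fun e => h02 (by
    rw [e.1, pow_one] at h01
    rw [show ζ0 = 1 from Subtype.ext h01, map_one])
  have q13 := kt.q13 rfl
  have sp : ∀ ζ : Rt K (q + 1), (ζ : Kˣ) ^ 11 = 1 → ζ ≠ 1 → ν ζ ≠ 1 := fun ζ h1 h2 e => by
    have : Fact (Nat.Prime 11) := ⟨by norm_num⟩
    have hp : IsPrimitiveRoot (ζ : Kˣ) 11 :=
      orderOf_eq_prime h1 (fun e => h2 (Subtype.ext e)) ▸ IsPrimitiveRoot.orderOf (ζ : Kˣ)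
    obtain ⟨i, -, hi⟩ := hp.eq_pow_of_mem_rootsOfUnity ((mem_rootsOfUnity 11 _).2 h01)
    exact h02 (by rw [show ζ0 = ζ ^ i from Subtype.ext hi.symm, map_pow, e, one_pow])
  have hT := kt.card
  have vO : ∀ s ∈ Rt K (q ^ 11 + 1), (¬ ∃ z ∈ Rt K (q + 1), ∃ p ∈ Rt K t, s = z * p) →
      h ν s = 0 := by
    intro s hs hn
    have hs' : s ^ (11 * (q + 1) * t) = 1 := by rw [← hT]; exact mem_rt.1 hs
    obtain ⟨k, rfl⟩ : ∃ k, q = k + 1 := ⟨q - 1, by omega⟩
    have hu : (s ^ ((k + 1 + 1) * k)) ^ (11 * t) = 1 := by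
      rw [← pow_mul, show (k + 1 + 1) * k * (11 * t) = 11 * (k + 1 + 1) * t * k by ring, pow_mul, hs',
        one_pow]
    obtain ⟨a, b, ha, hb, e⟩ := split kt.cop7.symm hu
    have haZ : a ∈ Rt K (k + 1 + 1) := by
      obtain ⟨c, hc⟩ := h7
      rw [mem_rt, hc, pow_mul, ha, one_pow]
    have ha1 : (⟨a, haZ⟩ : Rt K (k + 1 + 1)) ≠ 1 := by
      intro h1
      have h1' : a = 1 := congrArg Subtype.val h1
      rw [h1', one_mul] at e
      have e1 : (s ^ ((k + 1 + 1) * t)) ^ k = 1 := by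
        rw [← pow_mul, show (k + 1 + 1) * t * k = (k + 1 + 1) * k * t by ring, pow_mul, e, hb]
      have e2 : (s ^ ((k + 1 + 1) * t)) ^ 11 = 1 := by
        rw [← pow_mul, show (k + 1 + 1) * t * 11 = 11 * (k + 1 + 1) * t by ring, hs']
      have hk : Nat.Coprime 11 k := (Nat.Prime.coprime_iff_not_dvd (by norm_num)).2 (by omega)
      have e3 : s ^ ((k + 1 + 1) * t) = 1 := by
        have := pow_gcd_eq_one.2 ⟨e2, e1⟩
        rwa [hk, pow_one] at this
      obtain ⟨z, p, hz, hp, rfl⟩ := split kt.cop1.symm e3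
      exact hn ⟨z, mem_rt.2 hz, p, mem_rt.2 hp, rfl⟩
    have hne := sp _ ha ha1
    have e4 : s ^ (k + 1) ^ 2 = a * (b * s) := by
      rw [← mul_assoc, ← e, ← pow_succ]; congr 1; ring
    have e5 := fn.hf ν hν s hs
    have hbP : b ∈ Rt K t := mem_rt.2 hb
    have e6 := fn.hz ν hν ⟨a, haZ⟩ (b * s) (mul_mem (kt.PT hbP) hs)
    rw [fn.hp ν hν b hbP s hs] at e6
    rw [e4] at e5
    have e7 : ((ν ⟨a, haZ⟩ : ℂ) - 1) * h ν s = 0 := by
      rw [sub_mul, one_mul, ← e6]; exact sub_eq_zero.2 e5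
    rcases mul_eq_zero.1 e7 with h1 | h1
    · exact absurd (Units.ext (sub_eq_zero.1 h1)) hne
    · exact h1
  refine hF E K σ B q t kt fun z hz p hp h1 s' hs' c e => ?_
  by_contra hn
  have := ti ν hν _ (mul_mem (kt.ZT hz) (kt.PT hp)) s' hs' (nz z hz p hp h1)
    (fun hh => hn ⟨s', hh, 1, one_mem _, (mul_one _).symm⟩) c e
  rw [vO s' hs' hn, vC ⟨z, hz⟩ p hp] at this
  exact Units.ne_zero _ this.symm

end Cfsg.Agent.H22.UvNob
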